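import Cfsg.Agent.H61.QdFus
import Cfsg.Agent.H61.KInfApps
import Cfsg.Agent.S2795

/-! `Qd(p)`-freeness and control of strong fusion in sections. -/

set_option autoImplicit false

namespace Cfsg.Agent.H61

universe u

variable {G : Type u} [Group G] [Finite G] {p : ℕ} [Fact p.Prime]

/-- For odd `p`, the K-infinity subgroups control fusion in all sections of a `Qd(p)`-free group. -/
theorem fusionOK_kInf_of_qdFree {W : ∀ (Q : Type u) [Group Q], Subgroup Q} (hW : IsKInf W)
    (hp : p ≠ 2) (hfree : ¬ Cfsg.Involves ↥(Cfsg.qd p) G) (K R : Subgroup G)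
    [(R.subgroupOf K).Normal] : FusionOK p {W} (↥K ⧸ R.subgroupOf K) :=
  fusionOK_kInf hW (fun K' R' => (S2795.result hp).1 hfree K' R') (sect_of_pair K R)

end Cfsg.Agent.H61
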