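import Cfsg.Agent.H61.AbelianPGroupTools
import Cfsg.Agent.H55.FittingHall
import Cfsg.Agent.H19.MinimalNormal
import Cfsg.Prelude.Def_Transfer

/-!
# Groups in which every non-central element has a maximal centralizer
-/

set_option autoImplicit false
set_option linter.all false

namespace Cfsg.Agent.H61

open Subgroup
open scoped commutatorElement

variable {G : Type*} [Group G]

/-- The hypothesis: centralizers of non-central elements are maximal. -/
def CentMax (G : Type*) [Group G] : Prop :=
  ∀ x : G, x ∉ Subgroup.center G → IsCoatom (centralizer ({x} : Set G))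

theorem mem_cent_iff {x y : G} : y ∈ centralizer ({x} : Set G) ↔ Commute y x :=
  mem_centralizer_singleton_iff

theorem mem_center_of_centralizer_eq_top {x : G} (h : centralizer ({x} : Set G) = ⊤) :
    x ∈ Subgroup.center G :=
  mem_center_iff.mpr fun g => mem_cent_iff.mp (h.symm ▸ mem_top g)

theorem centralizer_eq_top_of_mem_center {x : G} (h : x ∈ Subgroup.center G) :
    centralizer ({x} : Set G) = ⊤ :=
  eq_top_iff.mpr fun g _ => mem_cent_iff.mpr (mem_center_iff.mp h g)

theorem center_le_cent (x : G) : Subgroup.center G ≤ centralizer ({x} : Set G) :=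
  fun z hz => mem_cent_iff.mpr (mem_center_iff.mp hz x).symm

/-- `x` is a power of `x * y` when their orders are coprime and they commute. -/
theorem mem_zpowers_mul_of_coprime [Finite G] {x y : G} (h : Commute x y)
    (hco : (orderOf x).Coprime (orderOf y)) : x ∈ zpowers (x * y) := by
  obtain ⟨u, v, huv⟩ : ∃ u v : ℤ, u * (orderOf x : ℤ) + v * (orderOf y : ℤ) = 1 :=
    Int.isCoprime_iff_nat_coprime.mpr (by simpa using hco)
  refine ⟨v * (orderOf y : ℤ), ?_⟩
  show (x * y) ^ (v * (orderOf y : ℤ)) = x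
  rw [h.mul_zpow, mul_comm v, zpow_mul y, zpow_natCast, pow_orderOf_eq_one, one_zpow, mul_one,
    mul_comm, show v * (orderOf y : ℤ) = 1 - u * (orderOf x : ℤ) by omega, zpow_sub, zpow_one,
    mul_comm u, zpow_mul, zpow_natCast, pow_orderOf_eq_one, one_zpow, inv_one, mul_one]

variable [Finite G]

/-- Commuting non-central elements of coprime orders have the same centralizer. -/
theorem CentMax.cent_eq (h : CentMax G) {x y : G} (hx : x ∉ Subgroup.center G)
    (hy : y ∉ Subgroup.center G) (hxy : Commute x y) (hco : (orderOf x).Coprime (orderOf y)) :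
    centralizer ({x} : Set G) = centralizer {y} := by
  have h1 : ∀ {a b : G}, a ∈ zpowers b → centralizer ({b} : Set G) ≤ centralizer {a} := by
    rintro a b ⟨i, rfl⟩ g hg
    exact mem_cent_iff.mpr ((mem_cent_iff.mp hg).zpow_right i)
  have hx' : x ∈ zpowers (x * y) := mem_zpowers_mul_of_coprime hxy hco
  have hy' : y ∈ zpowers (x * y) := hxy.eq ▸ mem_zpowers_mul_of_coprime hxy.symm hco.symm
  have hxy' : x * y ∉ Subgroup.center G := fun hc => hx ((zpowers_le.mpr hc) hx')
  have hM := h _ hxy'
  have e : ∀ {a : G}, a ∉ Subgroup.center G → a ∈ zpowers (x * y) →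
      centralizer ({a} : Set G) = centralizer {x * y} := fun {a} ha hm =>
    ((hM.le_iff.mp (h1 hm)).resolve_left fun e => ha (mem_center_of_centralizer_eq_top e))
  rw [e hx hx', e hy hy']

/-- Every centralizer is the centralizer of an element of prime power order. -/
theorem CentMax.exists_primePow (h : CentMax G) {x : G} (hx : x ∉ Subgroup.center G) :
    ∃ (p : ℕ) (u : G), p.Prime ∧ (∃ a, orderOf u = p ^ a) ∧ u ∉ Subgroup.center G ∧
      centralizer ({x} : Set G) = centralizer {u} := by
  by_contra hno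
  push Not at hno
  refine hx ?_
  -- all components are central
  have hall : ∀ (p : ℕ), p.Prime → ∀ u ∈ zpowers x, (∃ a, orderOf u = p ^ a) →
      u ∈ Subgroup.center G := by
    intro p hp u hu hua
    by_contra hu'
    refine hno p u hp hua hu' ?_
    have hle : centralizer ({x} : Set G) ≤ centralizer {u} := by
      obtain ⟨i, rfl⟩ := hu
      exact fun g hg => mem_cent_iff.mpr ((mem_cent_iff.mp hg).zpow_right i)
    exact (((h x hx).le_iff.mp hle).resolve_left fun e => hu' (mem_center_of_centralizer_eq_top e)).symm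
  let K : Subgroup (zpowers x) := (Subgroup.center G).subgroupOf (zpowers x)
  have hK : K = ⊤ := by
    refine eq_top_of_le_card _ (Nat.le_of_dvd Nat.card_pos ?_)
    refine (Nat.dvd_iff_prime_pow_dvd_dvd _ _).mpr fun p k hp hk => ?_
    haveI := Fact.mk hp
    obtain ⟨P⟩ : Nonempty (Sylow p (zpowers x)) := inferInstance
    refine (P.pow_dvd_card_of_pow_dvd_card hk).trans (card_dvd_of_le fun u hu => ?_)
    obtain ⟨a, ha⟩ := primePow_of_mem_pgroup P.2 hu
    exact hall p hp u u.2 ⟨a, (Subgroup.orderOf_coe u).trans ha⟩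
  exact (hK.symm ▸ mem_top (⟨x, mem_zpowers x⟩ : zpowers x) : (⟨x, mem_zpowers x⟩ : zpowers x) ∈ K)

/-- In the centralizer of a `p`-element the elements of order prime to `p` are central. -/
theorem CentMax.coprime_central_in (h : CentMax G) {p r : ℕ} (hp : p.Prime) (hr : r.Prime)
    (hrp : r ≠ p) {x u : G} (hxp : ∃ a, orderOf x = p ^ a) (hx : x ∉ Subgroup.center G)
    (hur : ∃ a, orderOf u = r ^ a) (hu : u ∈ centralizer ({x} : Set G)) :
    ∀ g ∈ centralizer ({x} : Set G), Commute g u := by
  intro g hg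
  by_cases huc : u ∈ Subgroup.center G
  · exact mem_center_iff.mp huc g
  obtain ⟨a, ha⟩ := hxp
  obtain ⟨b, hb⟩ := hur
  have := h.cent_eq hx huc (mem_cent_iff.mp hu).symm
    (by rw [ha, hb]; exact ((Nat.coprime_primes hp hr).mpr (Ne.symm hrp)).pow a b)
  exact mem_cent_iff.mp (this ▸ hg)

/-- If the centralizer of a `p`-element is non-abelian then its elements of order prime to `p` are
central in the whole group. -/
theorem CentMax.coprime_central (h : CentMax G) {p r : ℕ} (hp : p.Prime) (hr : r.Prime)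
    (hrp : r ≠ p) {x u : G} (hxp : ∃ a, orderOf x = p ^ a) (hx : x ∉ Subgroup.center G)
    (hna : ¬ ∀ a ∈ centralizer ({x} : Set G), ∀ b ∈ centralizer ({x} : Set G), Commute a b)
    (hur : ∃ a, orderOf u = r ^ a) (hu : u ∈ centralizer ({x} : Set G)) :
    u ∈ Subgroup.center G := by
  by_contra huc
  apply hna
  have hxu : centralizer ({x} : Set G) = centralizer {u} := by
    obtain ⟨a, ha⟩ := hxp
    obtain ⟨b, hb⟩ := hur
    exact h.cent_eq hx huc (mem_cent_iff.mp hu).symm
      (by rw [ha, hb]; exact ((Nat.coprime_primes hp hr).mpr (Ne.symm hrp)).pow a b)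
  -- every element of prime power order of `C(x)` is central in it
  set M := centralizer ({x} : Set G) with hM
  have hpp : ∀ (s : ℕ), s.Prime → ∀ w ∈ M, (∃ a, orderOf w = s ^ a) → ∀ g ∈ M, Commute g w := by
    intro s hs w hw hws g hg
    by_cases hsp : s = p
    · subst hsp
      exact h.coprime_central_in hr hs hrp.symm hur huc hws (hxu ▸ hw) g (hxu ▸ hg)
    · exact h.coprime_central_in hp hs hsp hxp hx hws hw g hg
  intro a ha b hb
  have : (⟨b, hb⟩ : M) ∈ Subgroup.center M := by
    refine mem_center_of_primePow fun s hs w hws => Subtype.ext ?_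
    obtain ⟨i, hi⟩ := hws
    exact (hpp s hs w w.2 ⟨i, (Subgroup.orderOf_coe w).trans hi⟩ b hb).eq
  exact congrArg Subtype.val (mem_center_iff.mp this ⟨a, ha⟩)

/-- The centralizer of an element of prime power order is nilpotent. -/
theorem CentMax.nilpotent (h : CentMax G) {p : ℕ} [hp : Fact p.Prime] {x : G}
    (hxp : ∃ a, orderOf x = p ^ a) (hx : x ∉ Subgroup.center G) :
    Group.IsNilpotent (centralizer ({x} : Set G)) := by
  set M := centralizer ({x} : Set G)
  have hpg : IsPGroup p (M ⧸ Subgroup.center M) := by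
    refine IsPGroup.of_card (n := (Nat.card (M ⧸ Subgroup.center M)).primeFactorsList.length) ?_
    refine Nat.eq_prime_pow_of_unique_prime_dvd Nat.card_pos.ne' fun {r} hr hd => ?_
    by_contra hrp
    haveI := Fact.mk hr
    obtain ⟨w, hw⟩ := exists_prime_orderOf_dvd_card' (G := M ⧸ Subgroup.center M) r hd
    obtain ⟨u, hu, hur⟩ := exists_lift_primePow _ (QuotientGroup.mk'_surjective _) hr (x := w)
      ⟨1, by rw [hw, pow_one]⟩
    have hc : u ∈ Subgroup.center M := mem_center_iff.mpr fun g => Subtype.ext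
      (h.coprime_central_in hp.out hr hrp hxp hx (by simpa [Subgroup.orderOf_coe] using hur) u.2 g g.2).eq
    have h1 : w = 1 := by rw [← hu]; exact (QuotientGroup.eq_one_iff u).mpr hc
    rw [h1, orderOf_one] at hw
    exact hr.one_lt.ne hw
  haveI := hpg.isNilpotent
  exact Subgroup.isNilpotent_of_ker_le_center (QuotientGroup.mk' (Subgroup.center M)) (by simp)

/-- A maximal subgroup which is normal has prime index. -/
theorem index_prime_of_normal_coatom {M : Subgroup G} [M.Normal] (hM : IsCoatom M) :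
    M.index.Prime := by
  haveI : Nontrivial (G ⧸ M) := QuotientGroup.nontrivial_iff.mpr hM.1
  set r := (Nat.card (G ⧸ M)).minFac
  have hr : r.Prime := Nat.minFac_prime Finite.one_lt_card.ne'
  haveI := Fact.mk hr
  obtain ⟨z, hz⟩ := exists_prime_orderOf_dvd_card' (G := G ⧸ M) r (Nat.minFac_dvd _)
  set π := QuotientGroup.mk' M
  have hlt : M < (zpowers z).comap π := by
    refine lt_of_le_of_ne (QuotientGroup.le_comap_mk' M _) fun e => ?_
    have h2 := congrArg (Subgroup.map π) e
    rw [QuotientGroup.map_mk'_self, map_comap_eq_self_of_surjective (QuotientGroup.mk'_surjective M),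
      eq_comm, zpowers_eq_bot] at h2
    rw [h2, orderOf_one] at hz
    exact hr.ne_one hz.symm
  have h3 := congrArg (Subgroup.map π) (hM.2 _ hlt)
  rw [map_comap_eq_self_of_surjective (QuotientGroup.mk'_surjective M),
    map_top_of_surjective _ (QuotientGroup.mk'_surjective M)] at h3
  rw [index_eq_card, ← card_top (G := G ⧸ M), ← h3, Nat.card_zpowers, hz]
  exact hr

/-- Maximal subgroups of nilpotent groups are normal of prime index; only prime `p` occurs. -/
theorem index_prime_of_coatom_nilpotent [Group.IsNilpotent G] {M : Subgroup G} (hM : IsCoatom M) :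
    M.Normal ∧ M.index.Prime := by
  haveI hMn : M.Normal :=
    Subgroup.NormalizerCondition.normal_of_coatom M Group.normalizerCondition_of_isNilpotent hM
  exact ⟨hMn, index_prime_of_normal_coatom hM⟩



theorem conj_mem_of_mem_center {z g : G} (hz : z ∈ Subgroup.center G) : g * z * g⁻¹ = z := by
  rw [mem_center_iff.mp hz g, mul_inv_cancel_right]

/-- Nilpotent case: `G/Z(G)` is elementary abelian. -/
theorem CentMax.elementary_of_nilpotent (h : CentMax G) [Group.IsNilpotent G]
    (hna : ¬ IsMulCommutative G) :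
    ∃ p : ℕ, p.Prime ∧ Cfsg.IsElementaryAbelian p (⊤ : Subgroup (G ⧸ Subgroup.center G)) := by
  obtain ⟨x, hx⟩ : ∃ x : G, x ∉ Subgroup.center G := by
    by_contra hno
    push Not at hno
    exact hna ⟨⟨fun a b => mem_center_iff.mp (hno b) a⟩⟩
  obtain ⟨p, u, hp, hua, huc, -⟩ := h.exists_primePow hx
  haveI := Fact.mk hp
  have honly : ∀ (r : ℕ), r.Prime → r ≠ p → ∀ w : G, (∃ b, orderOf w = r ^ b) → w ∈ Subgroup.center G := by
    intro r hr hrp w hwr
    by_contra hwc
    obtain ⟨a, ha⟩ := hua
    obtain ⟨b, hb⟩ := hwr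
    have hco : (orderOf u).Coprime (orderOf w) := by
      rw [ha, hb]; exact ((Nat.coprime_primes hp hr).mpr (Ne.symm hrp)).pow a b
    have hcom := Cfsg.Agent.H55.commute_of_coprime_orderOf ‹Group.IsNilpotent G› hco
    have heq := h.cent_eq huc hwc hcom hco
    refine huc (mem_center_of_primePow fun s hs v hv => ?_)
    obtain ⟨c, hc⟩ := hv
    by_cases hsp : s = p
    · -- a `p`-element commutes with `w`
      have hv' : Commute v w := Cfsg.Agent.H55.commute_of_coprime_orderOf ‹_› (by
        rw [hc, hb, hsp]; exact ((Nat.coprime_primes hp hr).mpr (Ne.symm hrp)).pow c b)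
      exact (mem_cent_iff.mp (heq.symm ▸ mem_cent_iff.mpr hv')).symm
    · exact Cfsg.Agent.H55.commute_of_coprime_orderOf ‹_› (by
        rw [hc, ha]; exact ((Nat.coprime_primes hp hs).mpr (Ne.symm hsp)).pow a c)
  have hkey : ∀ g : G, g ∉ Subgroup.center G → (centralizer ({g} : Set G)).Normal ∧
      (centralizer ({g} : Set G)).index = p := by
    intro g hg
    obtain ⟨hn, hi⟩ := index_prime_of_coatom_nilpotent (h g hg)
    refine ⟨hn, ?_⟩
    by_contra hne
    set M := centralizer ({g} : Set G)
    haveI := hn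
    haveI := Fact.mk hi
    obtain ⟨z, hz⟩ := exists_prime_orderOf_dvd_card' (G := G ⧸ M) M.index dvd_rfl
    obtain ⟨v, hv, hvr⟩ := exists_lift_primePow _ (QuotientGroup.mk'_surjective M) hi (x := z)
      ⟨1, by rw [hz, pow_one]⟩
    have hvc : v ∈ M := center_le_cent g (honly _ hi hne v hvr)
    have : z = 1 := by rw [← hv]; exact (QuotientGroup.eq_one_iff v).mpr hvc
    rw [this, orderOf_one] at hz
    exact hi.one_lt.ne hz
  set Z := Subgroup.center G
  have hpow : ∀ a : G, a ^ p ∈ Z := fun a => mem_center_iff.mpr fun g => by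
    by_cases hg : g ∈ Z
    · exact (mem_center_iff.mp hg (a ^ p)).symm
    obtain ⟨hn, hi⟩ := hkey g hg
    haveI := hn
    have hm := Subgroup.pow_index_mem (centralizer ({g} : Set G)) a
    rw [hi] at hm
    exact (mem_cent_iff.mp hm).symm.eq
  have hcomm : ∀ a b : G, a * b * a⁻¹ * b⁻¹ ∈ Z := fun a b => mem_center_iff.mpr fun g => by
    by_cases hg : g ∈ Z
    · exact (mem_center_iff.mp hg _).symm
    obtain ⟨hn, hi⟩ := hkey g hg
    haveI := hn
    haveI : IsCyclic (G ⧸ centralizer ({g} : Set G)) := isCyclic_of_prime_card (p := p) hi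
    refine (mem_cent_iff.mp ?_).symm.eq
    refine (QuotientGroup.eq_one_iff _).mp ?_
    rw [← QuotientGroup.mk'_apply, map_mul, map_mul, map_mul, map_inv, map_inv,
      IsCyclic.commGroup.mul_comm (QuotientGroup.mk' _ a) (QuotientGroup.mk' _ b)]
    group
  refine ⟨p, hp, ⟨⟨fun a b => Subtype.ext ?_⟩⟩, fun a _ => ?_⟩
  · obtain ⟨a', ha⟩ := QuotientGroup.mk'_surjective Z (a : G ⧸ Z)
    obtain ⟨b', hb⟩ := QuotientGroup.mk'_surjective Z (b : G ⧸ Z)
    show (a : G ⧸ Z) * b = b * a
    rw [← ha, ← hb]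
    have := (QuotientGroup.eq_one_iff _).mpr (hcomm a' b')
    rw [← QuotientGroup.mk'_apply, map_mul, map_mul, map_mul, map_inv, map_inv, mul_inv_eq_one,
      mul_inv_eq_iff_eq_mul] at this
    exact this
  · obtain ⟨a', rfl⟩ := QuotientGroup.mk'_surjective Z a
    exact (map_pow _ _ _).symm.trans ((QuotientGroup.eq_one_iff _).mpr (hpow a'))

/-- A non-abelian centralizer forces the group to be nilpotent. -/
theorem CentMax.nilpotent_of_nonabelian (h : CentMax G) {x₀ : G} (hx₀ : x₀ ∉ Subgroup.center G)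
    (hna₀ : ¬ ∀ a ∈ centralizer ({x₀} : Set G), ∀ b ∈ centralizer ({x₀} : Set G), Commute a b) :
    Group.IsNilpotent G := by
  obtain ⟨p, x, hp, hxp, hx, hxeq⟩ := h.exists_primePow hx₀
  rw [hxeq] at hna₀
  haveI := Fact.mk hp
  set M := centralizer ({x} : Set G) with hMdef
  have hMcen : ∀ (r : ℕ), r.Prime → r ≠ p → ∀ u ∈ M, (∃ b, orderOf u = r ^ b) →
      u ∈ Subgroup.center G := fun r hr hrp u hu hur => h.coprime_central hp hr hrp hxp hx hna₀ hur hu
  suffices hsuff : ∀ (r : ℕ), r.Prime → r ≠ p → ∀ g : G, (∃ b, orderOf g = r ^ b) →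
      g ∈ Subgroup.center G by
    have hpg : IsPGroup p (G ⧸ Subgroup.center G) := by
      refine IsPGroup.of_card (n := (Nat.card (G ⧸ Subgroup.center G)).primeFactorsList.length) ?_
      refine Nat.eq_prime_pow_of_unique_prime_dvd Nat.card_pos.ne' fun {r} hr hd => ?_
      by_contra hrp
      haveI := Fact.mk hr
      obtain ⟨w, hw⟩ := exists_prime_orderOf_dvd_card' (G := G ⧸ Subgroup.center G) r hd
      obtain ⟨u, hu, hur⟩ := exists_lift_primePow _ (QuotientGroup.mk'_surjective _) hr (x := w)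
        ⟨1, by rw [hw, pow_one]⟩
      have h1 : w = 1 := by rw [← hu]; exact (QuotientGroup.eq_one_iff u).mpr (hsuff r hr hrp u hur)
      rw [h1, orderOf_one] at hw
      exact hr.one_lt.ne hw
    haveI := hpg.isNilpotent
    exact Subgroup.isNilpotent_of_ker_le_center (QuotientGroup.mk' (Subgroup.center G)) (by simp)
  haveI hMnil := h.nilpotent hxp hx
  -- the Sylow subgroup of `M`
  obtain ⟨P⟩ : Nonempty (Sylow p M) := inferInstance
  haveI hPn : (P : Subgroup M).Normal := by
    have h03 : Group.IsNilpotent M ↔ ∀ (p : ℕ) (_ : Fact p.Prime) (P : Sylow p M),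
        (P : Subgroup M).Normal := (Group.isNilpotent_of_finite_tfae (G := M)).out 0 3
    exact h03.mp hMnil p ⟨hp⟩ P
  set S := (P : Subgroup M).map M.subtype with hS
  have hSp : IsPGroup p S := P.2.map _
  have hSM : S ≤ M := map_subtype_le _
  have hmemS : ∀ u ∈ M, (∃ a, orderOf u = p ^ a) → u ∈ S := fun u hu ⟨a, ha⟩ =>
    ⟨⟨u, hu⟩, le_normal_sylow P (IsPGroup.of_card (p := p) (n := a) (G := zpowers (⟨u, hu⟩ : M))
      (by rw [Nat.card_zpowers, ← ha, ← Subgroup.orderOf_coe])) (mem_zpowers _), rfl⟩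
  have hxS : x ∈ S := hmemS x (mem_cent_iff.mpr rfl) hxp
  -- `M` is generated by `S` and central elements
  have hgen : ∀ (K : Subgroup G), S ≤ K → Subgroup.center G ≤ K → M ≤ K := by
    intro K hSK hZK
    have : (K.subgroupOf M) = ⊤ := by
      refine eq_top_of_le_card _ (Nat.le_of_dvd Nat.card_pos ?_)
      refine (Nat.dvd_iff_prime_pow_dvd_dvd _ _).mpr fun r k hr hk => ?_
      haveI := Fact.mk hr
      obtain ⟨R⟩ : Nonempty (Sylow r M) := inferInstance
      refine (R.pow_dvd_card_of_pow_dvd_card hk).trans (card_dvd_of_le fun u hu => ?_)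
      obtain ⟨a, ha⟩ := primePow_of_mem_pgroup R.2 hu
      rw [← Subgroup.orderOf_coe] at ha
      by_cases hrp : r = p
      · subst hrp; exact hSK (hmemS u u.2 ⟨a, ha⟩)
      · exact hZK (hMcen r hr hrp u u.2 ⟨a, ha⟩)
    exact fun m hm => (this.symm ▸ mem_top (⟨m, hm⟩ : M) : (⟨m, hm⟩ : M) ∈ K.subgroupOf M)
  have hSna : ¬ ∀ a ∈ S, ∀ b ∈ S, Commute a b := by
    intro hab
    refine hna₀ fun a ha b hb => ?_
    have hK := hgen (centralizer (S : Set G)) (fun s hs => mem_centralizer_iff.mpr fun t ht =>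
      (hab t ht s hs).eq) (fun z hz => mem_centralizer_iff.mpr fun t _ => mem_center_iff.mp hz t)
    have hK2 : M ≤ centralizer (M : Set G) := by
      refine hgen _ (fun s hs => mem_centralizer_iff.mpr fun m hm => ?_)
        (fun z hz => mem_centralizer_iff.mpr fun t _ => mem_center_iff.mp hz t)
      exact (mem_centralizer_iff.mp (hK hm) s hs).symm
    exact (mem_centralizer_iff.mp (hK2 hb) a ha)
  have hMtop : M ≠ ⊤ := (h x hx).1
  by_cases hMn : M.Normal
  · -- normal: the index is `p`
    haveI := hMn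
    have hi := index_prime_of_normal_coatom (h x hx)
    by_cases hip : M.index = p
    · intro r hr hrp g hgr
      refine hMcen r hr hrp g ((QuotientGroup.eq_one_iff g).mp ?_) hgr
      obtain ⟨b, hb⟩ := hgr
      refine eq_one_of_pow_coprime (a := r ^ b) (b := p) ?_ ?_
        (((Nat.coprime_primes hr hp).mpr hrp).pow_left b)
      · rw [← hb, ← QuotientGroup.mk_pow, pow_orderOf_eq_one, QuotientGroup.mk_one]
      · have := pow_card_eq_one' (x := (g : G ⧸ M))
        rwa [← Subgroup.index_eq_card, hip] at this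
    exfalso
    haveI := Fact.mk hi
    obtain ⟨z, hz⟩ := exists_prime_orderOf_dvd_card' (G := G ⧸ M) M.index dvd_rfl
    obtain ⟨g, hg, hgr⟩ := exists_lift_primePow _ (QuotientGroup.mk'_surjective M) hi (x := z)
      ⟨1, by rw [hz, pow_one]⟩
    have hgM : g ∉ M := fun hgM => by
      have : z = 1 := by rw [← hg]; exact (QuotientGroup.eq_one_iff g).mpr hgM
      rw [this, orderOf_one] at hz
      exact hi.one_lt.ne hz
    have hgc : g ∉ Subgroup.center G := fun hc => hgM (center_le_cent x hc)
    -- `C_S(g)` is central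
    have hCS : ∀ y ∈ S, y ∈ centralizer ({g} : Set G) → y ∈ Subgroup.center G := by
      intro y hy hyg
      by_contra hyc
      obtain ⟨b, hb⟩ := hgr
      obtain ⟨a, ha⟩ := primePow_of_mem_pgroup hSp hy
      have e := h.cent_eq hyc hgc (mem_cent_iff.mp hyg)
        (by rw [ha, hb]; exact ((Nat.coprime_primes hp hi).mpr (Ne.symm hip)).pow a b)
      have hxg : Commute x g := mem_cent_iff.mp (e ▸ mem_cent_iff.mpr
        (mem_cent_iff.mp (hSM hy)).symm)
      exact hgM (mem_cent_iff.mpr hxg.symm)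
    set ZS := S ⊓ centralizer (S : Set G) with hZS
    have hconjS : ∀ k s : G, s ∈ S → k * s * k⁻¹ ∈ S := by
      intro k s hs
      obtain ⟨a, ha⟩ := primePow_of_mem_pgroup hSp hs
      exact hmemS _ (hMn.conj_mem s (hSM hs) k) ⟨a, by rw [← ha]; exact (MulAut.conj k).orderOf_eq s⟩
    haveI : ZS.Normal := ⟨fun s hs k => ⟨hconjS k s hs.1, mem_centralizer_iff.mpr fun t ht => by
      have h1 := mem_centralizer_iff.mp hs.2 (k⁻¹ * t * k) (by simpa using hconjS k⁻¹ t ht)
      calc t * (k * s * k⁻¹) = k * ((k⁻¹ * t * k) * s) * k⁻¹ := by group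
        _ = k * s * k⁻¹ * t := by rw [h1]; group⟩⟩
    have hxZS : x ∈ ZS := ⟨hxS, mem_centralizer_iff.mpr fun t ht => (mem_cent_iff.mp (hSM ht)).eq⟩
    have htop : ZS ⊔ centralizer ({g} : Set G) = ⊤ := (h g hgc).2 _ (right_lt_sup.mpr fun hle =>
      hx (hCS x hxS (hle hxZS)))
    refine hSna fun a ha b hb => ?_
    have hmem : ∀ s ∈ S, s ∈ ZS ⊔ Subgroup.center G := by
      intro s hs
      obtain ⟨d, hd, c, hc, rfl⟩ := (mem_sup_of_normal_left.mp (htop.symm ▸ mem_top s))
      refine mul_mem (mem_sup_left hd) (mem_sup_right (hCS c ?_ hc))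
      have := S.mul_mem (S.inv_mem hd.1) hs
      rwa [inv_mul_cancel_left] at this
    obtain ⟨z1, hz1, c, hc, rfl⟩ := mem_sup_of_normal_left.mp (hmem b hb)
    exact (show Commute a z1 from mem_centralizer_iff.mp hz1.2 a ha).mul_right
      (mem_center_iff.mp hc a)
  -- `M` is self-normalising
  have hNM : normalizer (M : Set G) = M := by
    rcases (h x hx).le_iff.mp (le_normalizer (H := M)) with e | e
    · exact absurd (normalizer_eq_top_iff.mp e) hMn
    · exact e
  have hNS : normalizer (S : Set G) = M := by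
    have hle : M ≤ normalizer (S : Set G) := hgen _ le_normalizer fun z hz =>
      mem_normalizer_iff.mpr fun t => by rw [(mem_center_iff.mp hz t).symm, mul_inv_cancel_right]
    rcases (h x hx).le_iff.mp hle with e | e
    · exfalso
      apply hMn
      haveI : S.Normal := normalizer_eq_top_iff.mp e
      have : M = S ⊔ Subgroup.center G := le_antisymm (hgen _ le_sup_left le_sup_right)
        (sup_le hSM (center_le_cent x))
      rw [this]; infer_instance
    · exact e
  -- an element of the second centre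
  obtain ⟨y, hyS, hycomm, hyZ⟩ : ∃ y ∈ S, (∀ s ∈ S, ∀ t ∈ S, Commute t (s * y * s⁻¹ * y⁻¹)) ∧
      ¬ ∀ s ∈ S, Commute s y := by
    haveI : Group.IsNilpotent S := hSp.isNilpotent
    have hne : Subgroup.center S ≠ ⊤ := fun e => hSna fun a ha b hb => (congrArg Subtype.val
      (mem_center_iff.mp (e.symm ▸ mem_top (⟨b, hb⟩ : S) : (⟨b, hb⟩ : S) ∈ Subgroup.center S) ⟨a, ha⟩) :)
    haveI : Nontrivial (S ⧸ Subgroup.center S) := QuotientGroup.nontrivial_iff.mpr hne
    haveI : Nontrivial (Subgroup.center (S ⧸ Subgroup.center S)) :=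
      (hSp.to_quotient _).center_nontrivial
    obtain ⟨w, hw⟩ := exists_ne (1 : Subgroup.center (S ⧸ Subgroup.center S))
    obtain ⟨y, hy⟩ := QuotientGroup.mk'_surjective (Subgroup.center S) (w : S ⧸ Subgroup.center S)
    refine ⟨y, y.2, fun s hs t ht => ?_, fun hall => hw (Subtype.ext ?_)⟩
    · have h1 : (⟨s, hs⟩ : S) * y * (⟨s, hs⟩ : S)⁻¹ * y⁻¹ ∈ Subgroup.center S := by
        rw [← QuotientGroup.eq_one_iff, ← QuotientGroup.mk'_apply, map_mul, map_mul, map_mul,
          map_inv, map_inv, hy, mem_center_iff.mp w.2, mul_inv_cancel_right, mul_inv_cancel]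
      exact congrArg Subtype.val (mem_center_iff.mp h1 ⟨t, ht⟩)
    · rw [← hy]
      exact (QuotientGroup.eq_one_iff y).mpr (mem_center_iff.mpr fun s => Subtype.ext (hall s s.2))
  have hyc : y ∉ Subgroup.center G := fun hc => hyZ fun s _ => mem_center_iff.mp hc s
  set T := centralizer ({y} : Set G) with hTdef
  have hTM : T ≠ M := fun e => hyZ fun s hs => mem_cent_iff.mp (e.symm ▸ hSM hs : s ∈ T)
  have hxT : x ∈ T := mem_cent_iff.mpr (mem_cent_iff.mp (hSM hyS)).symm
  have hyp := primePow_of_mem_pgroup hSp hyS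
  have hnaT : ¬ ∀ a ∈ T, ∀ b ∈ T, Commute a b := fun hab =>
    hTM (((h y hyc).le_iff.mp (fun t ht => mem_cent_iff.mpr (hab t ht x hxT) : T ≤ M)).resolve_left
      hMtop).symm
  have hTcen : ∀ (r : ℕ), r.Prime → r ≠ p → ∀ u ∈ T, (∃ b, orderOf u = r ^ b) →
      u ∈ Subgroup.center G := fun r hr hrp u hu hur => h.coprime_central hp hr hrp hyp hyc hnaT hur hu
  haveI hTnil := h.nilpotent hyp hyc
  obtain ⟨Q₀⟩ : Nonempty (Sylow p T) := inferInstance
  haveI hQn : (Q₀ : Subgroup T).Normal := by
    have h03 : Group.IsNilpotent T ↔ ∀ (p : ℕ) (_ : Fact p.Prime) (P : Sylow p T),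
        (P : Subgroup T).Normal := (Group.isNilpotent_of_finite_tfae (G := T)).out 0 3
    exact h03.mp hTnil p ⟨hp⟩ Q₀
  set R := (Q₀ : Subgroup T).map T.subtype
  have hRp : IsPGroup p R := Q₀.2.map _
  have hRT : R ≤ T := map_subtype_le _
  have hmemR : ∀ u ∈ T, (∃ a, orderOf u = p ^ a) → u ∈ R := fun u hu ⟨a, ha⟩ =>
    ⟨⟨u, hu⟩, le_normal_sylow Q₀ (IsPGroup.of_card (p := p) (n := a) (G := zpowers (⟨u, hu⟩ : T))
      (by rw [Nat.card_zpowers, ← ha, ← Subgroup.orderOf_coe])) (mem_zpowers _), rfl⟩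
  set D := S ⊓ T with hD
  have hDS : S ≤ normalizer (D : Set G) := by
    intro s hs
    have hstep : ∀ s ∈ S, ∀ d ∈ D, s * d * s⁻¹ ∈ D := by
      intro s hs d hd
      refine ⟨S.mul_mem (S.mul_mem hs hd.1) (S.inv_mem hs), mem_cent_iff.mpr ?_⟩
      have h1 : Commute d y := mem_cent_iff.mp hd.2
      have h2 := hycomm s⁻¹ (S.inv_mem hs) d hd.1
      -- `d` commutes with `s⁻¹ y s`
      have h3 : Commute d (s⁻¹ * y * s) := by
        have h4 := h2.mul_right h1
        simpa [mul_assoc] using h4
      have h5 := h3.map (MulAut.conj s).toMonoidHom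
      simpa [mul_assoc] using h5
    refine mem_normalizer_iff.mpr fun d => ⟨hstep s hs d, fun hd => ?_⟩
    simpa [mul_assoc] using hstep s⁻¹ (S.inv_mem hs) _ hd
  have hDnorm : D.Normal := by
    have hDR : D ≤ R := fun d hd => hmemR d hd.2 (primePow_of_mem_pgroup hSp hd.1)
    have hlt : D < R := by
      refine lt_of_le_of_ne hDR fun e => hTM ?_
      have hTle : T ≤ M := by
        have : (M.subgroupOf T) = ⊤ := by
          refine eq_top_of_le_card _ (Nat.le_of_dvd Nat.card_pos ?_)
          refine (Nat.dvd_iff_prime_pow_dvd_dvd _ _).mpr fun r k hr hk => ?_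
          haveI := Fact.mk hr
          obtain ⟨W⟩ : Nonempty (Sylow r T) := inferInstance
          refine (W.pow_dvd_card_of_pow_dvd_card hk).trans (card_dvd_of_le fun u hu => ?_)
          obtain ⟨a, ha⟩ := primePow_of_mem_pgroup W.2 hu
          rw [← Subgroup.orderOf_coe] at ha
          by_cases hrp : r = p
          · subst hrp; exact hSM ((e.symm ▸ hmemR u u.2 ⟨a, ha⟩ : (u : G) ∈ D).1)
          · exact center_le_cent x (hTcen r hr hrp u u.2 ⟨a, ha⟩)
        exact fun m hm => (this.symm ▸ mem_top (⟨m, hm⟩ : T) : (⟨m, hm⟩ : T) ∈ M.subgroupOf T)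
      exact (((h y hyc).le_iff.mp hTle).resolve_left hMtop).symm
    haveI : Group.IsNilpotent R := hRp.isNilpotent
    have hlt' : D.subgroupOf R < ⊤ := lt_top_iff_ne_top.mpr fun e => hlt.not_ge (subgroupOf_eq_top.mp e)
    obtain ⟨u, hu, hun⟩ := SetLike.exists_of_lt (Group.normalizerCondition_of_isNilpotent (G := R) _ hlt')
    have huN : (u : G) ∈ normalizer (D : Set G) := mem_normalizer_iff.mpr fun d => by
      constructor
      · intro hd
        exact (mem_normalizer_iff.mp hu ⟨d, hDR hd⟩).mp hd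
      · intro hd
        have hdR : d ∈ R := by
          have := R.mul_mem (R.mul_mem (R.inv_mem u.2) (hDR hd)) u.2
          simpa [mul_assoc] using this
        exact (mem_normalizer_iff.mp hu ⟨d, hdR⟩).mpr hd
    have huM : (u : G) ∉ M := fun huM =>
      hun ⟨hmemS u huM (primePow_of_mem_pgroup hRp u.2), hRT u.2⟩
    have hle : M ≤ normalizer (D : Set G) := hgen _ hDS fun z hz =>
      mem_normalizer_iff.mpr fun t => by rw [(mem_center_iff.mp hz t).symm, mul_inv_cancel_right]
    rcases (h x hx).le_iff.mp hle with e | e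
    · exact normalizer_eq_top_iff.mp e
    · exact absurd (show (u : G) ∈ centralizer ({x} : Set G) from e ▸ huN) huM
  intro r hr hrp g hgr
  by_contra hgc
  have hgM : g ∉ M := fun hgM => hgc (hMcen r hr hrp g hgM hgr)
  haveI := hDnorm
  have hxD : x ∈ D := ⟨hxS, hxT⟩
  have htop : D ⊔ centralizer ({g} : Set G) = ⊤ := (h g hgc).2 _ (right_lt_sup.mpr fun hle =>
    hgM (mem_cent_iff.mpr (mem_cent_iff.mp (hle hxD)).symm))
  refine hgM (hNS ▸ ?_)
  have hstep : ∀ g' ∈ centralizer ({g} : Set G), ∀ d ∈ D, g * (d * g') * g⁻¹ ∈ S ↔ d * g' ∈ S := by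
    intro g' hg' d hd
    have hc : g * g' * g⁻¹ = g' := by rw [(mem_cent_iff.mp hg').eq.symm, mul_inv_cancel_right]
    have hd' : g * d * g⁻¹ ∈ S := (hDnorm.conj_mem d hd g).1
    rw [show g * (d * g') * g⁻¹ = (g * d * g⁻¹) * (g * g' * g⁻¹) by group, hc,
      S.mul_mem_cancel_left hd', S.mul_mem_cancel_left hd.1]
  refine mem_normalizer_iff.mpr fun s => ?_
  obtain ⟨d, hd, c, hc, rfl⟩ := mem_sup_of_normal_left.mp (htop.symm ▸ mem_top s)
  exact (hstep c hc d hd).symm

/-- If all centralizers are abelian and none is normal, a contradiction follows by counting. -/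
theorem CentMax.exists_normal (h : CentMax G) (hna : ¬ IsMulCommutative G)
    (hab : ∀ x : G, x ∉ Subgroup.center G → ∀ a ∈ centralizer ({x} : Set G),
      ∀ b ∈ centralizer ({x} : Set G), Commute a b) :
    ∃ x : G, x ∉ Subgroup.center G ∧ (centralizer ({x} : Set G)).Normal := by
  classical
  by_contra hno
  push Not at hno
  set Z := Subgroup.center G
  haveI := Fintype.ofFinite G
  have heq : ∀ x y : G, x ∉ Z → y ∉ Z → y ∈ centralizer ({x} : Set G) →
      centralizer ({y} : Set G) = centralizer {x} := by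
    intro x y hx hy hxy
    have hle : centralizer ({x} : Set G) ≤ centralizer {y} := fun g hg =>
      mem_cent_iff.mpr (hab x hx g hg y hxy)
    exact (((h x hx).le_iff.mp hle).resolve_left fun e => hy (mem_center_of_centralizer_eq_top e))
  -- the elements whose centralizer is conjugate to that of `x`
  let cls : G → Finset G := fun x => Finset.univ.filter fun y => y ∉ Z ∧
    ∃ g : G, centralizer ({y} : Set G) = centralizer {g * x * g⁻¹}
  have hconjc : ∀ (g x y : G), y ∈ centralizer ({g * x * g⁻¹} : Set G) ↔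
      g⁻¹ * y * g ∈ centralizer ({x} : Set G) := by
    intro g x y
    simp only [mem_centralizer_singleton_iff]
    constructor
    · intro hh
      calc g⁻¹ * y * g * x = g⁻¹ * (y * (g * x * g⁻¹)) * g := by group
        _ = x * (g⁻¹ * y * g) := by rw [hh]; group
    · intro hh
      calc y * (g * x * g⁻¹) = g * ((g⁻¹ * y * g) * x) * g⁻¹ := by group
        _ = g * x * g⁻¹ * y := by rw [hh]; group
  have hbig : ∀ x : G, x ∉ Z → Nat.card G ≤ 2 * (cls x).card ∧ (cls x).card < Nat.card G - Nat.card Z := by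
    intro x hx
    set M := centralizer ({x} : Set G) with hM
    have hNM : normalizer (M : Set G) = M := by
      rcases (h x hx).le_iff.mp (le_normalizer (H := M)) with e | e
      · exact absurd (normalizer_eq_top_iff.mp e) (hno x hx)
      · exact e
    -- `cls x` is in bijection with `(G ⧸ M) × (M \ Z)`
    let A := Finset.univ.filter fun m : G => m ∈ M ∧ m ∉ Z
    let f : (G ⧸ M) × {m : G // m ∈ A} → G := fun z => z.1.out * z.2.1 * z.1.out⁻¹
    have hA : ∀ {m : G}, m ∈ A ↔ m ∈ M ∧ m ∉ Z := fun {m} => by simp [A]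
    have hinZ : ∀ (g m : G), g * m * g⁻¹ ∈ Z ↔ m ∈ Z := fun g m => by
      constructor
      · intro hh
        have := Normal.conj_mem (inferInstance : (Subgroup.center G).Normal) _ hh g⁻¹
        simpa [mul_assoc] using this
      · exact fun hh => Normal.conj_mem (inferInstance : (Subgroup.center G).Normal) m hh g
    have hf : Function.Injective f := by
      rintro ⟨c, m, hm⟩ ⟨c', m', hm'⟩ he
      have he' : c.out * m * c.out⁻¹ = c'.out * m' * c'.out⁻¹ := he
      obtain ⟨hmM, hmZ⟩ := hA.mp hm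
      obtain ⟨hmM', hmZ'⟩ := hA.mp hm'
      set u := c'.out⁻¹ * c.out with hu
      have hum : u * m * u⁻¹ = m' := by
        rw [hu]
        calc c'.out⁻¹ * c.out * m * (c'.out⁻¹ * c.out)⁻¹
            = c'.out⁻¹ * (c.out * m * c.out⁻¹) * c'.out := by group
          _ = m' := by rw [he']; group
      have e1 := heq x m hx hmZ hmM
      have e2 := heq x m' hx hmZ' hmM'
      have huN : u ∈ normalizer (M : Set G) := mem_normalizer_iff.mpr fun k => by
        constructor
        · intro hk
          show _ ∈ centralizer ({x} : Set G)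
          rw [← e2, ← hum, hconjc]
          simpa [mul_assoc] using (e1.symm ▸ hk : k ∈ centralizer ({m} : Set G))
        · intro hk
          replace hk : _ ∈ centralizer ({x} : Set G) := hk
          rw [← e2, ← hum, hconjc] at hk
          exact show k ∈ centralizer ({x} : Set G) from e1 ▸ (by simpa [mul_assoc] using hk : k ∈ centralizer ({m} : Set G))
      rw [hNM] at huN
      have hcc : c' = c := by
        rw [← c.out_eq', ← c'.out_eq']
        exact QuotientGroup.eq.mpr huN
      subst hcc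
      simp [hu] at hum
      subst hum
      rfl
    have himg : Finset.univ.image f = cls x := by
      ext y
      simp only [Finset.mem_image, Finset.mem_univ, true_and, cls, Finset.mem_filter]
      constructor
      · rintro ⟨⟨c, m, hm⟩, rfl⟩
        obtain ⟨hmM, hmZ⟩ := hA.mp hm
        refine ⟨fun hh => hmZ ((hinZ _ _).mp hh), c.out, ?_⟩
        ext k
        show k ∈ centralizer ({c.out * m * c.out⁻¹} : Set G) ↔ _
        rw [hconjc, hconjc, heq x m hx hmZ hmM]
      · rintro ⟨hy, g, hg⟩
        have hyC : y ∈ centralizer ({g * x * g⁻¹} : Set G) := hg ▸ mem_cent_iff.mpr rfl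
        rw [hconjc] at hyC
        set c : G ⧸ M := QuotientGroup.mk g
        obtain ⟨m0, hm0, hce⟩ : ∃ m0 ∈ M, c.out = g * m0 :=
          ⟨g⁻¹ * c.out, QuotientGroup.eq.mp c.out_eq'.symm, by group⟩
        have hmem : c.out⁻¹ * y * c.out ∈ M := by
          rw [hce, show (g * m0)⁻¹ * y * (g * m0) = m0⁻¹ * (g⁻¹ * y * g) * m0 by group]
          exact M.mul_mem (M.mul_mem (M.inv_mem hm0) hyC) hm0
        refine ⟨⟨c, c.out⁻¹ * y * c.out, hA.mpr ⟨hmem, fun hh => hy ?_⟩⟩, by simp [f, mul_assoc]⟩
        have := (hinZ c.out _).mpr hh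
        simpa [mul_assoc] using this
    have hcardA : A.card + Nat.card Z = Nat.card M := by
      have h1 : A = (Finset.univ.filter fun m : G => m ∈ M) \ (Finset.univ.filter fun m : G => m ∈ Z) := by
        ext m; simp [A]
      have hsub : (Finset.univ.filter fun m : G => m ∈ Z) ⊆ Finset.univ.filter fun m : G => m ∈ M := by
        intro m; simp only [Finset.mem_filter, Finset.mem_univ, true_and]; exact fun hm => center_le_cent x hm
      rw [h1, Finset.card_sdiff_of_subset hsub, Nat.card_eq_fintype_card, Nat.card_eq_fintype_card,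
        Fintype.card_subtype, Fintype.card_subtype, Nat.sub_add_cancel (Finset.card_le_card hsub)]
    have hcls : (cls x).card = M.index * A.card := by
      rw [← himg, Finset.card_image_of_injective _ hf, Finset.card_univ, Fintype.card_prod,
        Fintype.card_coe, Subgroup.index_eq_card, Nat.card_eq_fintype_card]
    have hZM : 2 * Nat.card Z ≤ Nat.card M := by
      have hlt : Z < M := lt_of_le_of_ne (center_le_cent x) fun e =>
        hx (show x ∈ Z from e ▸ mem_cent_iff.mpr rfl)
      obtain ⟨k, hk⟩ := card_dvd_of_le hlt.le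
      have hk1 : k ≠ 1 := fun e => hlt.ne (eq_of_le_of_card_ge hlt.le (by rw [hk, e, mul_one]))
      have hk0 : k ≠ 0 := fun e => Nat.card_pos.ne' (hk.trans (by rw [e, mul_zero]))
      rw [hk, mul_comm]
      exact Nat.mul_le_mul le_rfl (by omega)
    have hidx : 2 ≤ M.index := Subgroup.one_lt_index_of_ne_top (h x hx).1
    have hG := M.card_mul_index
    have hZpos : 0 < Nat.card Z := Nat.card_pos
    constructor
    · rw [hcls, ← hG]
      calc Nat.card M * M.index ≤ (2 * A.card) * M.index := Nat.mul_le_mul_right _ (by omega)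
        _ = 2 * (M.index * A.card) := by ring
    · rw [hcls, ← hG, ← hcardA, Nat.add_mul, mul_comm A.card]
      have : 2 * Nat.card Z ≤ Nat.card Z * M.index := by rw [mul_comm 2]; exact Nat.mul_le_mul_left _ hidx
      omega
  obtain ⟨x, hx⟩ : ∃ x : G, x ∉ Z := by
    by_contra h'
    push Not at h'
    exact hna ⟨⟨fun a b => mem_center_iff.mp (h' b) a⟩⟩
  let N0 := Finset.univ.filter fun y : G => y ∉ Z
  have hN0 : N0.card + Nat.card Z = Nat.card G := by
    have h2 := Finset.card_filter_add_card_filter_not (s := (Finset.univ : Finset G)) (fun y => y ∈ Z)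
    rw [Nat.card_eq_fintype_card, Nat.card_eq_fintype_card, Fintype.card_subtype, ← Finset.card_univ]
    simp only [N0] at h2 ⊢
    omega
  have hsub : ∀ x, cls x ⊆ N0 := fun x y hy => by
    simp only [cls, N0, Finset.mem_filter] at hy ⊢
    exact ⟨hy.1, hy.2.1⟩
  obtain ⟨y, hyN, hyx⟩ := Finset.exists_mem_notMem_of_card_lt_card (s := cls x) (t := N0) (by
    have := (hbig x hx).2; omega)
  have hy : y ∉ Z := (Finset.mem_filter.mp hyN).2
  have hdisj : Disjoint (cls x) (cls y) := by
    rw [Finset.disjoint_left]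
    intro z hzx hzy
    simp only [cls, Finset.mem_filter, Finset.mem_univ, true_and] at hzx hzy
    obtain ⟨-, g, hg⟩ := hzx
    obtain ⟨-, g', hg'⟩ := hzy
    refine hyx (Finset.mem_filter.mpr ⟨Finset.mem_univ _, hy, g'⁻¹ * g, ?_⟩)
    ext k
    have h1 : g' * k * g'⁻¹ ∈ centralizer ({g' * y * g'⁻¹} : Set G) ↔
        k ∈ centralizer ({y} : Set G) := by rw [hconjc]; simp [mul_assoc]
    rw [← h1, ← hg', hg, hconjc, hconjc]
    simp [mul_assoc]
  have h3 := Finset.card_le_card (Finset.union_subset (hsub x) (hsub y))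
  rw [Finset.card_union_of_disjoint hdisj] at h3
  have := (hbig x hx).1
  have := (hbig y hy).1
  have : 0 < Nat.card Z := Nat.card_pos
  omega

/-- Main theorem. -/
theorem CentMax.main (h : CentMax G) (hna : ¬ IsMulCommutative G) :
    (∃ p : ℕ, p.Prime ∧ Cfsg.IsElementaryAbelian p (⊤ : Subgroup (G ⧸ Subgroup.center G))) ∨
    (¬ IsMulCommutative (G ⧸ Subgroup.center G) ∧
      (∀ H : Subgroup (G ⧸ Subgroup.center G), H ≠ ⊤ → IsMulCommutative ↥H) ∧
      ∃ p q a : ℕ, p.Prime ∧ q.Prime ∧ p ≠ q ∧ Nat.card (G ⧸ Subgroup.center G) = p ^ a * q ∧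
        ∀ P : Subgroup (G ⧸ Subgroup.center G), Nat.card ↥P = p ^ a → P.Normal) := by
  by_cases hnil : Group.IsNilpotent G
  · exact Or.inl (h.elementary_of_nilpotent hna)
  refine Or.inr ?_
  have hab : ∀ x : G, x ∉ Subgroup.center G → ∀ a ∈ centralizer ({x} : Set G),
      ∀ b ∈ centralizer ({x} : Set G), Commute a b := by
    intro x hx
    by_contra hh
    exact hnil (h.nilpotent_of_nonabelian hx hh)
  obtain ⟨x, hx, hMn⟩ := h.exists_normal hna hab
  set Z := Subgroup.center G with hZ
  set M := centralizer ({x} : Set G) with hM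
  set r := M.index with hr0
  have hr : r.Prime := index_prime_of_normal_coatom (h x hx)
  haveI := Fact.mk hr
  set π := QuotientGroup.mk' Z
  set A := M.map π
  haveI : A.Normal := hMn.map π (QuotientGroup.mk'_surjective Z)
  -- centralizers of outside elements
  have hout : ∀ g : G, g ∉ M → g ∉ Z ∧ centralizer ({g} : Set G) ⊓ M = Z ∧
      Nat.card ((centralizer ({g} : Set G)).map π) = r := by
    intro g hg
    have hgZ : g ∉ Z := fun hh => hg (center_le_cent x hh)
    have hinf : centralizer ({g} : Set G) ⊓ M = Z := by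
      refine le_antisymm (fun d hd => ?_) (le_inf (center_le_cent g) (center_le_cent x))
      by_contra hdZ
      have hle : M ≤ centralizer ({d} : Set G) := fun m hm => mem_cent_iff.mpr (hab x hx m hm d hd.2)
      have e := (((h x hx).le_iff.mp hle).resolve_left fun e => hdZ (mem_center_of_centralizer_eq_top e))
      exact hg (show g ∈ centralizer ({x} : Set G) from e ▸ mem_cent_iff.mpr (mem_cent_iff.mp hd.1).symm)
    refine ⟨hgZ, hinf, ?_⟩
    have h1 : M ⊔ centralizer ({g} : Set G) = ⊤ := (h x hx).2 _ (left_lt_sup.mpr fun hle =>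
      hg (hle (mem_cent_iff.mpr rfl)))
    haveI := hMn
    have h2 := Cfsg.Agent.H32.relIndex_sup_eq (centralizer ({g} : Set G)) M
    rw [sup_comm, h1, relIndex_top_right] at h2
    rw [← relIndex_ker, QuotientGroup.ker_mk', ← hinf, inf_relIndex_left]
    have h3 := Subgroup.card_mul_index M
    have h4 := Cfsg.Agent.H32.card_sup_mul_card_inf (centralizer ({g} : Set G)) M
    rw [sup_comm, h1, card_top, hinf] at h4
    have h5 := Cfsg.Agent.H32.card_mul_relIndex (show M ⊓ centralizer ({g} : Set G) ≤ centralizer ({g} : Set G) from inf_le_right)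
    rw [inf_relIndex_right, inf_comm, hinf] at h5
    rw [← h3, ← h5] at h4
    have hpos : 0 < Nat.card M := Nat.card_pos
    have h6 : M.index * (Nat.card M * Nat.card Z) = M.relIndex (centralizer ({g} : Set G)) * (Nat.card M * Nat.card Z) := by
      linarith
    exact (Nat.eq_of_mul_eq_mul_right (Nat.mul_pos Nat.card_pos Nat.card_pos) h6).symm
  obtain ⟨g₀, hg₀⟩ : ∃ g : G, g ∉ M := by
    by_contra hh
    push Not at hh
    exact (h x hx).1 (eq_top_iff.mpr fun g _ => hh g)
  -- `A` is a minimal normal subgroup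
  have hmin : ∀ K : Subgroup (G ⧸ Z), K.Normal → K ≤ A → K = ⊥ ∨ K = A := by
    intro K hK hKA
    by_cases hK0 : K = ⊥
    · exact Or.inl hK0
    refine Or.inr (le_antisymm hKA ?_)
    obtain ⟨hgZ, hinf, -⟩ := hout g₀ hg₀
    set K' := K.comap π
    have hZK : Z ≤ K' := fun z hz => by
      show π z ∈ K
      rw [(QuotientGroup.eq_one_iff z).mpr hz |> fun e => (e : π z = 1)]
      exact K.one_mem
    haveI : K'.Normal := hK.comap π
    have hK'M : K' ≤ M := fun k hk => by
      obtain ⟨m, hm, he⟩ := hKA (show π k ∈ K from hk)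
      have : m⁻¹ * k ∈ Z := QuotientGroup.eq.mp he
      simpa using M.mul_mem hm (center_le_cent x this)
    have htop : K' ⊔ centralizer ({g₀} : Set G) = ⊤ := (h g₀ hgZ).2 _ (right_lt_sup.mpr fun hle => hK0 (by
      have h1 : K' ≤ Z := fun k hk => hinf.le ⟨hle hk, hK'M hk⟩
      rw [eq_bot_iff]
      intro k hk
      obtain ⟨k', rfl⟩ := QuotientGroup.mk'_surjective Z k
      exact mem_bot.mpr ((QuotientGroup.eq_one_iff k').mpr (h1 hk))))
    rintro _ ⟨m, hm, rfl⟩
    obtain ⟨k, hk, c, hc, rfl⟩ := mem_sup_of_normal_left.mp (htop.symm ▸ mem_top m)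
    have hcM : c ∈ M := by
      have := M.mul_mem (M.inv_mem (hK'M hk)) hm
      rwa [inv_mul_cancel_left] at this
    exact hK'M.trans le_rfl |> fun _ => K'.mul_mem hk (hZK (hinf.le ⟨hc, hcM⟩))
  have hA0 : A ≠ ⊥ := fun e => hx ((QuotientGroup.eq_one_iff x).mp
    (mem_bot.mp (e ▸ mem_map_of_mem π (mem_cent_iff.mpr rfl)) : π x = 1))
  haveI hAc : IsMulCommutative A := by
    refine ⟨⟨?_⟩⟩
    rintro ⟨_, a, ha, rfl⟩ ⟨_, b, hb, rfl⟩
    refine Subtype.ext ?_
    show π a * π b = π b * π a
    rw [← map_mul, ← map_mul, (hab x hx a ha b hb).eq]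
  haveI : Group.IsSolvable A := Group.isSolvable_of_comm fun a b => mul_comm' a b
  obtain ⟨-, q, hq, hAq, -⟩ := Cfsg.Agent.H19.minimalNormal_elementary A inferInstance hA0 hmin
  haveI := Fact.mk hq
  obtain ⟨a, ha⟩ := IsPGroup.iff_card.mp hAq
  have hAi : A.index = r := by
    rw [hr0, index_map_eq M (QuotientGroup.mk'_surjective Z)]
    rw [QuotientGroup.ker_mk']
    exact center_le_cent x
  have hcardQ : Nat.card (G ⧸ Z) = q ^ a * r := by rw [← A.card_mul_index, ha, hAi]
  have hqr : q ≠ r := by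
    intro e
    apply hnil
    have : IsPGroup r (G ⧸ Z) := IsPGroup.of_card (n := a + 1) (by rw [hcardQ, e, pow_succ])
    haveI := this.isNilpotent
    exact Subgroup.isNilpotent_of_ker_le_center π (by simp [π, hZ])
  refine ⟨fun hc => ?_, fun H hH => ?_, q, r, a, hq, hr, hqr, hcardQ, fun P hP => ?_⟩
  · apply hnil
    haveI : Group.IsNilpotent (G ⧸ Z) := by
      letI : CommGroup (G ⧸ Z) := { (inferInstance : Group (G ⧸ Z)) with mul_comm := fun a b => hc.is_comm.comm a b }
      exact CommGroup.isNilpotent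
    exact Subgroup.isNilpotent_of_ker_le_center π (by simp [π, hZ])
  · by_cases hHA : H ≤ A
    · exact ⟨⟨fun u v => Subtype.ext (congrArg Subtype.val
        (hAc.is_comm.comm ⟨u, hHA u.2⟩ ⟨v, hHA v.2⟩) :)⟩⟩
    obtain ⟨w, hwH, hwA⟩ := SetLike.not_le_iff_exists.mp hHA
    obtain ⟨g, rfl⟩ := QuotientGroup.mk'_surjective Z w
    have hgM : g ∉ M := fun hh => hwA (mem_map_of_mem π hh)
    obtain ⟨hgZ, hinf, hc⟩ := hout g hgM
    set C := (centralizer ({g} : Set G)).map π
    have hCz : C = zpowers (π g) := by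
      have hle : zpowers (π g) ≤ C := zpowers_le.mpr (mem_map_of_mem π (mem_cent_iff.mpr rfl))
      refine (eq_of_le_of_card_ge hle ?_).symm
      have h1 : Nat.card (zpowers (π g)) ∣ r := hc ▸ card_dvd_of_le hle
      rcases hr.eq_one_or_self_of_dvd _ h1 with h2 | h2
      · exact absurd (zpowers_eq_bot.mp (card_eq_one.mp h2))
          (fun e => hgZ ((QuotientGroup.eq_one_iff g).mp e))
      · omega
    have hCH : C ≤ H := hCz ▸ zpowers_le.mpr hwH
    have hmax : centralizer ({g} : Set G) ≤ H.comap π := fun c hc' => hCH (mem_map_of_mem π hc')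
    rcases (h g hgZ).le_iff.mp hmax with e | e
    · exact absurd (by
        rw [eq_top_iff]; intro u _
        obtain ⟨u', rfl⟩ := QuotientGroup.mk'_surjective Z u
        exact (e.symm ▸ mem_top u' : u' ∈ H.comap π)) hH
    · have : H = C := le_antisymm (fun u hu => by
        obtain ⟨u', rfl⟩ := QuotientGroup.mk'_surjective Z u
        exact mem_map_of_mem π (e ▸ hu : u' ∈ centralizer ({g} : Set G))) hCH
      rw [this, hCz]; infer_instance
  · have hPA : P ≤ A := by
      intro u hu
      refine (QuotientGroup.eq_one_iff u).mp (eq_one_of_pow_coprime (a := q ^ a) (b := r) ?_ ?_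
        (((Nat.coprime_primes hq hr).mpr hqr).pow_left a))
      · rw [← QuotientGroup.mk_pow, ← hP]
        have h1 : u ^ Nat.card P = 1 := congrArg Subtype.val (pow_card_eq_one' (x := (⟨u, hu⟩ : P)))
        rw [h1, QuotientGroup.mk_one]
      · have := pow_card_eq_one' (x := (u : (G ⧸ Z) ⧸ A))
        rwa [← index_eq_card, hAi] at this
    rw [eq_of_le_of_card_ge hPA (by rw [ha, hP])]
    infer_instance

end Cfsg.Agent.H61
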