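import Mathlib

/-! Normal subgroups meeting the centralizer of an involution trivially. -/

set_option autoImplicit false

namespace Cfsg.Agent.H61

variable {H : Type*} [Group H] [Finite H]

/-- With a four-group of conjugates of `z`, a normal subgroup meeting `C(z)` trivially is trivial. -/
theorem eq_bot_of_klein (z : H) (hz : orderOf z = 2) (E : Subgroup H) (hE : IsKleinFour ↥E)
    (hzE : z ∈ E) (hc : ∀ e ∈ E, e ≠ 1 → IsConj z e) (N : Subgroup H) [hn : N.Normal]
    (hN : N ⊓ Subgroup.centralizer ({z} : Set H) = ⊥) : N = ⊥ := by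
  have hinv : ∀ e ∈ E, e ≠ 1 → ∀ n ∈ N, e * n * e⁻¹ = n⁻¹ := by
    have hz2 : z * z = 1 := by rw [← pow_two, ← hz, pow_orderOf_eq_one]
    let φ : N → N := fun n => MulAut.conjNormal z n
    have hφ : MonoidHom.FixedPointFree φ := fun n h => by
      have h1 : (n : H) ∈ N ⊓ Subgroup.centralizer ({z} : Set H) := by
        refine Subgroup.mem_inf.2 ⟨n.2, Subgroup.mem_centralizer_singleton_iff.2 ?_⟩
        have := congrArg Subtype.val h
        simp only [φ, MulAut.conjNormal_apply] at this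
        exact (mul_inv_eq_iff_eq_mul.1 this).symm
      rw [hN, Subgroup.mem_bot] at h1
      exact Subtype.ext h1
    have h2 : Function.Involutive φ := fun n => by
      refine Subtype.ext ?_
      simp only [φ, MulAut.conjNormal_apply]
      calc z * (z * (n : H) * z⁻¹) * z⁻¹ = (z * z) * n * (z * z)⁻¹ := by group
        _ = n := by rw [hz2]; simp
    have hneg := hφ.coe_eq_inv_of_involutive h2
    have hzn : ∀ n ∈ N, z * n * z⁻¹ = n⁻¹ := fun n hn' => by
      have := congrArg Subtype.val (congrFun hneg ⟨n, hn'⟩)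
      simpa [φ] using this
    intro e he he1 n hn'
    obtain ⟨g, rfl⟩ := isConj_iff.1 (hc e he he1)
    have h3 := hzn (g⁻¹ * n * g) (by simpa using hn.conj_mem n hn' g⁻¹)
    calc g * z * g⁻¹ * n * (g * z * g⁻¹)⁻¹ = g * (z * (g⁻¹ * n * g) * z⁻¹) * g⁻¹ := by group
      _ = n⁻¹ := by rw [h3]; group
  rw [eq_bot_iff]
  intro n hn'
  obtain ⟨w, hw, hw1, hwz⟩ : ∃ w ∈ E, w ≠ 1 ∧ w ≠ z := by
    by_contra hno
    push Not at hno
    have hsub : (E : Set H) ⊆ {1, z} := fun w hw => by
      by_cases h : w = 1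
      · exact Or.inl h
      · exact Or.inr (hno w hw h)
    have h4 : (E : Set H).ncard = 4 := by
      rw [← Nat.card_coe_set_eq]; exact hE.card_four
    have h5 := Set.ncard_le_ncard hsub (Set.toFinite _)
    have h6 : ({1, z} : Set H).ncard ≤ 2 := by
      refine (Set.ncard_insert_le _ _).trans ?_
      rw [Set.ncard_singleton]
    omega
  have hz1 : z ≠ 1 := fun h => by rw [h, orderOf_one] at hz; omega
  have hzz : z⁻¹ = z := inv_eq_of_mul_eq_one_right (by rw [← pow_two, ← hz, pow_orderOf_eq_one])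
  have hzw : z * w ≠ 1 := fun h => hwz (by rw [← hzz]; exact (eq_inv_of_mul_eq_one_right h))
  have h1 := hinv _ (mul_mem hzE hw) hzw n hn'
  have h2 : z * w * n * (z * w)⁻¹ = n := by
    calc z * w * n * (z * w)⁻¹ = z * (w * n * w⁻¹) * z⁻¹ := by group
      _ = z * n⁻¹ * z⁻¹ := by rw [hinv w hw hw1 n hn']
      _ = n := by rw [hinv z hzE hz1 _ (inv_mem hn'), inv_inv]
  rw [h2] at h1
  have h3 : z * n * z⁻¹ = n := by rw [hinv z hzE hz1 n hn', ← h1]
  have h4 : n ∈ N ⊓ Subgroup.centralizer ({z} : Set H) := ⟨hn',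
    Subgroup.mem_centralizer_singleton_iff.2 (mul_inv_eq_iff_eq_mul.1 h3).symm⟩
  rwa [hN] at h4

end Cfsg.Agent.H61
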