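import Cfsg.Agent.H24.PGroupBasic
import Cfsg.Agent.H21.Complement
import Cfsg.Agent.H59.DihedralLemma

/-!
A 2-group containing an elementary abelian subgroup of order 8 has a normal four-group.
-/

set_option autoImplicit false

namespace Cfsg.Agent.H61

open Subgroup

/-- A solution of `r² ≡ 1` modulo a 2-power order. -/
theorem zpow_sq_cases {P : Type*} [Group P] {a : P} {n : ℕ} (hn : orderOf a = 2 ^ (n + 1)) {r : ℤ}
    (h : a ^ (r * r) = a) : (a ^ (r + 1)) ^ 2 = 1 ∨ (a ^ (r - 1)) ^ 2 = 1 := by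
  have h1 : ((2 ^ (n + 1) : ℕ) : ℤ) ∣ (r - 1) * (r + 1) := by
    rw [← hn, orderOf_dvd_iff_zpow_eq_one, show (r - 1) * (r + 1) = r * r + (-1) by ring,
      zpow_add, h, zpow_neg_one, mul_inv_cancel]
  have hrodd : Odd r := by
    rcases Int.even_or_odd r with he | ho
    · exfalso
      have h2 : (2 : ℤ) ∣ (r - 1) * (r + 1) := (Dvd.intro _ (by push_cast; ring : (2:ℤ) * 2 ^ n = ((2 ^ (n + 1) : ℕ) : ℤ))).trans h1
      obtain ⟨c, rfl⟩ := he
      obtain ⟨d, hd⟩ := h2
      have h3 : 2 * d = 2 * (2 * c * c) - 1 := by rw [← hd]; ring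
      omega
    · exact ho
  obtain ⟨s, rfl⟩ := hrodd
  rw [← zpow_natCast, ← zpow_mul, ← zpow_natCast, ← zpow_mul, ← orderOf_dvd_iff_zpow_eq_one,
    ← orderOf_dvd_iff_zpow_eq_one, hn]
  have hfac : (2 * s + 1 - 1) * (2 * s + 1 + 1) = (4 * s) * (s + 1) := by ring
  rw [hfac] at h1
  rcases Int.even_or_odd s with he | ho
  · right
    have hc : IsCoprime ((2 ^ (n + 1) : ℕ) : ℤ) (s + 1) := by
      push_cast
      exact IsCoprime.pow_left (Int.prime_two.coprime_iff_not_dvd.2 (by obtain ⟨k, rfl⟩ := he; omega))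
    have := hc.dvd_of_dvd_mul_right h1
    rw [show (2 * s + 1 - 1) * ((2 : ℕ) : ℤ) = 4 * s by push_cast; ring]
    exact this
  · left
    have hc : IsCoprime ((2 ^ (n + 1) : ℕ) : ℤ) s := by
      push_cast
      exact IsCoprime.pow_left (Int.prime_two.coprime_iff_not_dvd.2 (by obtain ⟨k, rfl⟩ := ho; omega))
    have := hc.dvd_of_dvd_mul_left (show ((2 ^ (n + 1) : ℕ) : ℤ) ∣ s * (4 * (s + 1)) by
      convert h1 using 1; ring)
    rw [show (2 * s + 1 + 1) * ((2 : ℕ) : ℤ) = 4 * (s + 1) by push_cast; ring]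
    exact this

/-- A 2-group with an elementary abelian subgroup of order 8 has a normal four-group. -/
theorem exists_normal_four {P : Type*} [Group P] [Finite P] (hP : IsPGroup 2 P) (E : Subgroup P)
    (hE8 : Nat.card E = 8) (hE2 : ∀ e ∈ E, e ^ 2 = 1) :
    ∃ U : Subgroup P, U.Normal ∧ Nat.card U = 4 ∧ ∀ u ∈ U, u ^ 2 = 1 := by
  classical
  haveI : Fact (Nat.Prime 2) := ⟨Nat.prime_two⟩
  have hmk : ∀ B : Subgroup P, B.Normal → IsMulCommutative B → (∀ b ∈ B, b ^ 2 = 1) →
      4 ≤ Nat.card B → ∃ U : Subgroup P, U.Normal ∧ Nat.card U = 4 ∧ ∀ u ∈ U, u ^ 2 = 1 := by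
    intro B hB _ hB2 h4
    haveI := hB
    obtain ⟨k, hk⟩ := H24.exists_card_pow hP B
    have hk2 : 2 ≤ k := by
      by_contra hc
      have := Nat.pow_le_pow_right (n := 2) (by norm_num) (show k ≤ 1 by omega)
      omega
    obtain ⟨U, hU, hUB, hUc⟩ := H24.exists_normal_le_card hP hk hk2
    exact ⟨U, hU, hUc, fun u hu => hB2 u (hUB hu)⟩
  obtain ⟨A, hAn, hAc, hAmax⟩ := H24.exists_maximal_normal_abelian P
  haveI := hAn
  have hcA := H24.centralizer_eq_of_maximal_normal_abelian hP hAc hAmax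
  letI : CommGroup A := { (inferInstance : Group A) with mul_comm := hAc.is_comm.comm }
  -- the elements of order at most two of `A`
  let B : Subgroup P :=
    { carrier := {x | x ∈ A ∧ x ^ 2 = 1}
      one_mem' := ⟨A.one_mem, one_pow _⟩
      mul_mem' := fun {x y} hx hy => ⟨mul_mem hx.1 hy.1, by
        have h : Commute x y := congrArg Subtype.val (hAc.is_comm.comm ⟨x, hx.1⟩ ⟨y, hy.1⟩)
        rw [h.mul_pow, hx.2, hy.2, mul_one]⟩
      inv_mem' := fun {x} hx => ⟨inv_mem hx.1, by rw [inv_pow, hx.2, inv_one]⟩ }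
  by_cases hB4 : 4 ≤ Nat.card B
  · refine hmk B ⟨fun x hx g => ⟨hAn.conj_mem x hx.1 g, by rw [conj_pow, hx.2, mul_one, mul_inv_cancel]⟩⟩
      ⟨⟨fun x y => Subtype.ext (show (x : P) * y = y * x from congrArg (fun w : A => (w : P)) (hAc.is_comm.comm ⟨x, x.2.1⟩ ⟨y, y.2.1⟩))⟩⟩
      (fun b hb => hb.2) hB4
  have hPnt : Nontrivial P := by
    by_contra h
    rw [not_nontrivial_iff_subsingleton] at h
    have := Nat.card_of_subsingleton (1 : E)
    omega
  have hAne : A ≠ ⊥ := by
    intro h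
    rw [h] at hcA
    have : centralizer ((⊥ : Subgroup P) : Set P) = ⊤ := by ext x; simp [mem_centralizer_iff]
    rw [this] at hcA
    exact top_ne_bot hcA
  -- the unique involution
  obtain ⟨z, hzA, hzc, hzo⟩ := H24.exists_central_orderOf hP hAne
  have hz2 : z ^ 2 = 1 := hzo ▸ pow_orderOf_eq_one z
  have hz1 : z ≠ 1 := fun h => by rw [h, orderOf_one] at hzo; omega
  have hBz : ∀ x ∈ A, x ^ 2 = 1 → x = 1 ∨ x = z := by
    intro x hx hx2
    by_contra h
    push Not at h
    refine hB4 ?_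
    obtain ⟨k, hk⟩ := H24.exists_card_pow hP B
    have h3 : 3 ≤ Nat.card B := by
      have hinj : Function.Injective (![(⟨1, B.one_mem⟩ : B), ⟨z, hzA, hz2⟩, ⟨x, hx, hx2⟩]) := by
        intro i j hij
        fin_cases i <;> fin_cases j <;> first | rfl | (exfalso; simp [Subtype.ext_iff] at hij; grind)
      simpa using Nat.card_le_card_of_injective _ hinj
    rcases k with _ | _ | k
    · omega
    · omega
    · rw [hk]
      calc 4 = 2 ^ 2 := rfl
        _ ≤ 2 ^ (k + 1 + 1) := Nat.pow_le_pow_right (by norm_num) (by omega)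
  haveI : IsCyclic A := by
    refine H21.isCyclic_of_comm_unique (p := 2) (hP.to_subgroup A) ?_
    have key : ∀ H : Subgroup A, Nat.card H = 2 → H = zpowers ⟨z, hzA⟩ := by
      intro H hH
      refine Subgroup.eq_of_le_of_card_ge (fun x hx => ?_) (by rw [hH, Nat.card_zpowers, Subgroup.orderOf_mk, hzo])
      have h2 : (⟨x, hx⟩ : H) ^ Nat.card H = 1 := pow_card_eq_one'
      rw [hH] at h2
      rcases hBz (x : P) x.2 (congrArg (fun y : A => (y : P)) (congrArg Subtype.val h2)) with h | h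
      · rw [show x = 1 from Subtype.ext h]; exact one_mem _
      · rw [show x = ⟨z, hzA⟩ from Subtype.ext h]; exact mem_zpowers _
    exact fun H L hH hL => (key H hH).trans (key L hL).symm
  obtain ⟨a', ha'⟩ := (isCyclic_iff_exists_zpowers_eq_top (α := A)).1 inferInstance
  set a : P := (a' : P)
  have hgen : ∀ x ∈ A, ∃ m : ℤ, a ^ m = x := fun x hx => by
    obtain ⟨m, hm⟩ := mem_zpowers_iff.1 (ha' ▸ mem_top (⟨x, hx⟩ : A))
    exact ⟨m, by simpa using congrArg Subtype.val hm⟩
  have hcent : ∀ g : P, g * a = a * g → g ∈ A := by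
    intro g hg
    rw [← hcA, mem_centralizer_iff]
    intro x hx
    obtain ⟨m, rfl⟩ := hgen x hx
    exact (Commute.zpow_right hg m).eq.symm
  have hconj : ∀ g : P, ∃ t : ℤ, g * a * g⁻¹ = a ^ t := fun g =>
    (hgen _ (hAn.conj_mem a a'.2 g)).imp fun _ h => h.symm
  obtain ⟨n, hn⟩ : ∃ n, orderOf a = 2 ^ (n + 1) := by
    obtain ⟨k, hk⟩ := hP a
    obtain ⟨i, -, hi⟩ := (Nat.dvd_prime_pow Nat.prime_two).1 (orderOf_dvd_of_pow_eq_one hk)
    rcases i with _ | i
    · exfalso
      rw [pow_zero, orderOf_eq_one_iff] at hi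
      obtain ⟨m, hm⟩ := hgen z hzA
      rw [hi, one_zpow] at hm
      exact hz1 hm.symm
    · exact ⟨i, hi⟩
  have hzodd : ∀ m : ℤ, Odd m → z ^ m = z := by
    rintro m ⟨k, rfl⟩
    rw [zpow_add, zpow_mul, zpow_one, show z ^ (2 : ℤ) = 1 by exact_mod_cast hz2, one_zpow, one_mul]
  have hzcm : ∀ g : P, g * z = z * g := fun g => mem_center_iff.1 hzc g
  -- the three possible actions
  have hcases : ∀ e ∈ E, e ∉ A → e * a * e⁻¹ = a⁻¹ ∨ e * a * e⁻¹ = a * z ∨ e * a * e⁻¹ = a⁻¹ * z := by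
    intro e he heA
    obtain ⟨r, hr⟩ := hconj e
    have he2 : e * e = 1 := by rw [← sq]; exact hE2 e he
    have hrr : a ^ (r * r) = a := by
      calc a ^ (r * r) = (e * a * e⁻¹) ^ r := by rw [hr, zpow_mul]
        _ = e * (e * a * e⁻¹) * e⁻¹ := by rw [conj_zpow, hr]
        _ = (e * e) * a * (e * e)⁻¹ := by group
        _ = a := by rw [he2]; group
    rcases zpow_sq_cases hn hrr with h | h
    · rcases hBz _ (zpow_mem (show a ∈ A from a'.2) _) h with h | h
      · left; rw [hr, ← mul_right_inj a, ← zpow_one_add, add_comm, h, mul_inv_cancel]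
      · right; right
        rw [hr, ← h, show r = -1 + (r + 1) by ring, zpow_add, zpow_neg_one]
        congr 2; ring
    · rcases hBz _ (zpow_mem (show a ∈ A from a'.2) _) h with h | h
      · exfalso
        refine heA (hcent e ?_)
        have : e * a * e⁻¹ = a := by rw [hr, show r = (r - 1) + 1 by ring, zpow_add, h, one_mul, zpow_one]
        exact mul_inv_eq_iff_eq_mul.1 this
      · right; left
        rw [hr, ← h, show a * a ^ (r - 1) = a ^ r by rw [← zpow_one_add]; congr 1; ring]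
  have hdist : ∀ e ∈ E, ∀ f ∈ E, e * a * e⁻¹ = f * a * f⁻¹ → e * f ∈ A := by
    intro e he f hf h
    refine hcent _ ?_
    have hff : f⁻¹ = f := inv_eq_of_mul_eq_one_left (by rw [← sq]; exact hE2 f hf)
    have hee : e⁻¹ = e := inv_eq_of_mul_eq_one_left (by rw [← sq]; exact hE2 e he)
    have h2 : f⁻¹ * e * a * (f⁻¹ * e)⁻¹ = a := by
      calc f⁻¹ * e * a * (f⁻¹ * e)⁻¹ = f⁻¹ * (e * a * e⁻¹) * f := by group
        _ = a := by rw [h]; group
    have h3 : f⁻¹ * e = e * f := by
      rw [hff]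
      have := hE2 (e * f) (mul_mem he hf)
      rw [sq] at this
      calc f * e = (e * f)⁻¹ := by rw [mul_inv_rev, hff, hee]
        _ = e * f := inv_eq_of_mul_eq_one_left this
    rw [h3] at h2
    exact mul_inv_eq_iff_eq_mul.1 h2
  obtain ⟨e₁, he₁, h₁⟩ : ∃ e ∈ E, e ∉ A := by
    by_contra h
    push Not at h
    have := Subgroup.card_dvd_of_le (show E ≤ B from fun e he => ⟨h e he, hE2 e he⟩)
    have := Nat.le_of_dvd Nat.card_pos this
    omega
  obtain ⟨e₂, he₂, h₂, h₁₂⟩ : ∃ e ∈ E, e ∉ A ∧ e₁ * e ∉ A := by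
    by_contra h
    push Not at h
    have hinj : Function.Injective (fun e : E =>
        if h' : (e : P) ∈ A then ((⟨e, h', hE2 e e.2⟩ : B), false)
        else ((⟨e₁ * e, h e e.2 h', hE2 _ (mul_mem he₁ e.2)⟩ : B), true)) := by
      intro x y hxy
      by_cases hx : (x : P) ∈ A <;> by_cases hy : (y : P) ∈ A
      · simp only [hx, hy, dite_true, Prod.mk.injEq, and_true] at hxy
        exact Subtype.ext (congrArg (fun w : B => (w : P)) hxy)
      · simp [hx, hy] at hxy
      · simp [hx, hy] at hxy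
      · simp only [hx, hy, dite_false, Prod.mk.injEq, and_true] at hxy
        exact Subtype.ext (mul_left_cancel (congrArg (fun w : B => (w : P)) hxy))
    have := Nat.card_le_card_of_injective _ hinj
    rw [Nat.card_prod, Nat.card_eq_fintype_card (α := Bool), Fintype.card_bool] at this
    omega
  have h₃ : e₁ * e₂ ∈ E := mul_mem he₁ he₂
  have hne12 : e₁ * a * e₁⁻¹ ≠ e₂ * a * e₂⁻¹ := fun h => h₁₂ (hdist _ he₁ _ he₂ h)
  have hne13 : e₁ * a * e₁⁻¹ ≠ (e₁ * e₂) * a * (e₁ * e₂)⁻¹ := fun h => h₂ (by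
    have := hdist _ he₁ _ h₃ h
    rwa [← mul_assoc, show e₁ * e₁ = 1 by rw [← sq]; exact hE2 _ he₁, one_mul] at this)
  have hne23 : e₂ * a * e₂⁻¹ ≠ (e₁ * e₂) * a * (e₁ * e₂)⁻¹ := fun h => h₁ (by
    have := hdist _ h₃ _ he₂ h.symm
    rwa [mul_assoc, show e₂ * e₂ = 1 by rw [← sq]; exact hE2 _ he₂, mul_one] at this)
  obtain ⟨e, he, heA, hea, haz⟩ : ∃ e ∈ E, e ∉ A ∧ e * a * e⁻¹ = a * z ∧ a⁻¹ ≠ a * z := by
    have c1 := hcases _ he₁ h₁
    have c2 := hcases _ he₂ h₂
    have c3 := hcases _ h₃ h₁₂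
    by_cases haz : a⁻¹ = a * z
    · exfalso; grind
    · rcases c1 with c | c | c <;> rcases c2 with d | d | d <;> rcases c3 with f | f | f <;>
        first
          | exact ⟨_, he₁, h₁, c, haz⟩
          | exact ⟨_, he₂, h₂, d, haz⟩
          | exact ⟨_, h₃, h₁₂, f, haz⟩
          | (exfalso; grind)
  have he2 : e * e = 1 := by rw [← sq]; exact hE2 e he
  have hez : e ≠ z ∧ e ≠ 1 := ⟨fun h => heA (h ▸ hzA), fun h => heA (h ▸ A.one_mem)⟩
  have hez2 : (e * z) ^ 2 = 1 := by
    rw [(show Commute e z from hzcm e).mul_pow, hE2 e he, hz2, mul_one]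
  -- the four-group `⟨e, z⟩`
  set U : Subgroup P := zpowers z ⊔ zpowers e with hUdef
  have hzU : z ∈ U := mem_sup_left (mem_zpowers z)
  have heU : e ∈ U := mem_sup_right (mem_zpowers e)
  have hUcard : Nat.card U = 4 := by
    rw [hUdef, H59.card_sup_zpowers Nat.prime_two (hE2 e he) (fun h => heA (zpowers_le.2 hzA h))
      (fun w hw => by
        obtain ⟨i, rfl⟩ := mem_zpowers_iff.1 hw
        exact (show Commute z e from (hzcm e).symm).zpow_left i), Nat.card_zpowers, hzo]
  have hU2 : ∀ u ∈ U, u ^ 2 = 1 := by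
    have hab : ∀ u ∈ U, Commute u e ∧ Commute u z ∧ u ^ 2 = 1 := by
      intro u hu
      rw [hUdef, zpowers_eq_closure, zpowers_eq_closure, ← Subgroup.closure_union] at hu
      induction hu using closure_induction with
      | mem u hu =>
        rcases hu with hu | hu <;> rw [Set.mem_singleton_iff] at hu <;> subst hu
        · exact ⟨(hzcm e).symm, Commute.refl u, hz2⟩
        · exact ⟨Commute.refl u, hzcm u, hE2 u he⟩
      | one => exact ⟨Commute.one_left _, Commute.one_left _, one_pow _⟩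
      | mul u v hu hv h1 h2 =>
        refine ⟨h1.1.mul_left h2.1, h1.2.1.mul_left h2.2.1, ?_⟩
        have hcv : Commute u v := by
          have hv' : v ∈ closure ({z} ∪ {e} : Set P) := hv
          refine (mem_centralizer_iff.1 ((closure_le _).2 ?_ hv') u (Set.mem_singleton u))
          rintro w (hw | hw) <;> rw [Set.mem_singleton_iff] at hw <;> subst hw <;>
            rw [SetLike.mem_coe, mem_centralizer_iff] <;> rintro _ rfl
          · exact h1.2.1.eq
          · exact h1.1.eq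
        rw [hcv.mul_pow, h1.2.2, h2.2.2, mul_one]
      | inv u _ h1 => exact ⟨h1.1.inv_left, h1.2.1.inv_left, by rw [inv_pow, h1.2.2, inv_one]⟩
    exact fun u hu => (hab u hu).2.2
  refine ⟨U, ⟨fun x hx g => ?_⟩, hUcard, hU2⟩
  revert x hx
  suffices h : U ≤ U.comap (MulAut.conj g).toMonoidHom from fun x hx => h hx
  rw [hUdef, sup_le_iff, zpowers_le, zpowers_le, mem_comap, mem_comap]
  show g * z * g⁻¹ ∈ U ∧ g * e * g⁻¹ ∈ U
  · obtain ⟨t, ht⟩ := hconj g⁻¹
    rw [inv_inv] at ht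
    have htodd : Odd t := by
      rcases Int.even_or_odd t with ⟨s, hs⟩ | h
      · exfalso
        have h1 : orderOf (g⁻¹ * a * g) = orderOf a := by
          have := MulEquiv.orderOf_eq (MulAut.conj g⁻¹) a
          simpa [MulAut.conj_apply] using this
        have h2 : (g⁻¹ * a * g) ^ 2 ^ n = 1 := by
          rw [ht, ← zpow_natCast, ← zpow_mul, ← orderOf_dvd_iff_zpow_eq_one, hn, hs]
          exact ⟨s, by push_cast; ring⟩
        have := Nat.le_of_dvd (pow_pos (by norm_num) _) (orderOf_dvd_of_pow_eq_one h2)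
        rw [h1, hn, pow_succ] at this
        have := Nat.two_pow_pos n
        omega
      · exact h
    set b := g * e * g⁻¹ * e with hb
    have heinv : e⁻¹ = e := inv_eq_of_mul_eq_one_left he2
    have hbA : b ∈ A := by
      refine hcent _ ?_
      refine mul_inv_eq_iff_eq_mul.1 ?_
      calc b * a * b⁻¹ = g * e * g⁻¹ * (e * a * e⁻¹) * (g * e⁻¹ * g⁻¹) := by rw [hb]; group
        _ = g * e * (g⁻¹ * a * g) * (g⁻¹ * z * g) * e⁻¹ * g⁻¹ := by rw [hea]; group
        _ = g * ((e * a ^ t * e⁻¹) * (e * z * e⁻¹)) * g⁻¹ := by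
          rw [ht, show g⁻¹ * z * g = z by rw [hzcm g⁻¹, inv_mul_cancel_right]]; group
        _ = g * ((a * z) ^ t * z) * g⁻¹ := by
          rw [← conj_zpow, hea, hzcm e, mul_inv_cancel_right]
        _ = g * (g⁻¹ * a * g) * g⁻¹ := by
          rw [(show Commute a z from hzcm a).mul_zpow, hzodd t htodd, ht, mul_assoc (a ^ t),
            show z * z = 1 by rw [← sq]; exact hz2, mul_one]
        _ = a := by group
    have hbz : b = 1 ∨ b = z := by
      obtain ⟨m, hm⟩ := hgen b hbA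
      have h1 : b * (e * b * e⁻¹) = 1 := by
        calc b * (e * b * e⁻¹) = g * e * g⁻¹ * (e * e) * (g * e * g⁻¹) * (e * e⁻¹) := by rw [hb]; group
          _ = g * (e * e) * g⁻¹ := by
            rw [mul_inv_cancel, he2, mul_one, mul_one, mul_one,
              show g * e * g⁻¹ * (g * e * g⁻¹) = g * (e * e) * g⁻¹ by group, he2, mul_one]
          _ = 1 := by rw [he2, mul_one, mul_inv_cancel]
      rw [← hm, ← conj_zpow, hea, (show Commute a z from hzcm a).mul_zpow, ← mul_assoc, ← zpow_add] at h1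
      rcases Int.even_or_odd m with ⟨k, hk⟩ | ho
      · rw [show z ^ m = 1 by rw [hk, ← two_mul, zpow_mul, show z ^ (2 : ℤ) = 1 by exact_mod_cast hz2, one_zpow],
          mul_one] at h1
        refine hBz b hbA ?_
        rw [← hm, sq, ← zpow_add]
        exact h1
      · exfalso
        rw [hzodd m ho] at h1
        have h2 : a ^ (m + m) = z := by
          rw [mul_eq_one_iff_eq_inv.1 h1, inv_eq_of_mul_eq_one_left (by rw [← sq]; exact hz2)]
        have h3 : (a ^ (2 : ℤ)) ^ (2 * m) = 1 := by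
          rw [← zpow_mul, show (2 : ℤ) * (2 * m) = (m + m) * 2 by ring, zpow_mul, h2]
          exact_mod_cast hz2
        -- so `a ^ 4 = 1`
        have h4 : a ^ (4 : ℤ) = 1 := by
          rw [← orderOf_dvd_iff_zpow_eq_one, hn]
          rw [← zpow_mul, ← orderOf_dvd_iff_zpow_eq_one, hn,
            show (2 : ℤ) * (2 * m) = m * 4 by ring] at h3
          refine IsCoprime.dvd_of_dvd_mul_left ?_ h3
          push_cast
          exact IsCoprime.pow_left (Int.prime_two.coprime_iff_not_dvd.2 (by obtain ⟨k, rfl⟩ := ho; omega))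
        have h5 : a ^ (2 : ℤ) = z := by
          obtain ⟨k, rfl⟩ := ho
          rw [show 2 * k + 1 + (2 * k + 1) = 4 * k + 2 by ring, zpow_add, zpow_mul, h4, one_zpow,
            one_mul] at h2
          exact h2
        refine haz ?_
        rw [← h5, ← zpow_one_add, ← mul_right_inj a, ← zpow_one_add, mul_inv_cancel]
        exact h4.symm
    have hge : g * e * g⁻¹ = b * e := by rw [hb, mul_assoc (g * e * g⁻¹), he2, mul_one]
    refine ⟨by rw [hzcm g, mul_inv_cancel_right]; exact hzU, ?_⟩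
    rw [hge]
    exact U.mul_mem (hbz.elim (fun h => h ▸ U.one_mem) fun h => h ▸ hzU) heU

end Cfsg.Agent.H61
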