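import Cfsg.Agent.H72.QdModel
import Cfsg.Agent.H1.Orders
import Cfsg.Agent.H61.Sect

/-! No family of isomorphism-invariant functors controls fusion in `Qd(p)`. -/

set_option autoImplicit false

namespace Cfsg.Agent.H61.QdFus

universe u

open Matrix Cfsg.Agent.H95 Cfsg.Agent.H72.QdModel

variable {p : ℕ} [hp : Fact p.Prime] {X : Type u} [Group X] (e : ↥(Cfsg.qd p) ≃* X)

local notation "up'" x => up (Multiplicative.ofAdd x)

theorem lin_unique {A B : SL2 p} {v w : Plane p} (h : tr e v * li e A = tr e w * li e B) :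
    A = B := by
  have h' : li e (A * B⁻¹) = tr e (v⁻¹ * w) := by
    rw [map_mul, map_mul, map_inv, map_inv, eq_inv_mul_iff_mul_eq, ← mul_assoc, h,
      mul_inv_cancel_right]
  exact mul_inv_eq_one.1 (li_eq_one_of_eq_tr e h')

theorem mul_eq (v w : Plane p) (A B : SL2 p) :
    (tr e v * li e A) * (tr e w * li e B) = tr e (v * act A w) * li e (A * B) := by
  rw [mul_assoc, ← mul_assoc (li e A), li_tr, map_mul, map_mul, mul_assoc, mul_assoc]

/-- The standard elements of the Sylow subgroup. -/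
def el (a b x : ZMod p) : X := tr e (pt a b) * li e (up' x)

theorem el_mul (a b x c d y : ZMod p) :
    el e a b x * el e c d y = el e (a + (c + x * d)) (b + d) (x + y) := by
  rw [el, el, el, mul_eq, act_up, pt_mul, ← map_mul, ← ofAdd_add]

theorem el_zero : el e 0 0 0 = 1 := by
  have : pt (p := p) 0 0 = 1 := by rw [eq_pt (1 : Plane p)]; simp
  simp [el, this]

theorem el_inj {a b x c d y : ZMod p} (h : el e a b x = el e c d y) : a = c ∧ b = d ∧ x = y := by
  have hA := lin_unique e h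
  have hx : x = y := by
    simpa using congrArg (fun A : SL2 p => (A : Matrix (Fin 2) (Fin 2) (ZMod p)) 0 1) hA
  subst hx
  have hv : pt a b = pt c d := tr_injective e (mul_right_cancel h)
  have h0 := congrFun (congrArg Multiplicative.toAdd hv)
  exact ⟨by simpa [pt] using h0 0, by simpa [pt] using h0 1, rfl⟩

/-- The standard Sylow subgroup. -/
def syl : Subgroup X where
  carrier := Set.range fun t : ZMod p × ZMod p × ZMod p => el e t.1 t.2.1 t.2.2
  one_mem' := ⟨(0, 0, 0), el_zero e⟩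
  mul_mem' := by
    rintro _ _ ⟨⟨a, b, x⟩, rfl⟩ ⟨⟨c, d, y⟩, rfl⟩
    exact ⟨(_, _, _), (el_mul e a b x c d y).symm⟩
  inv_mem' := by
    rintro _ ⟨⟨a, b, x⟩, rfl⟩
    refine ⟨(-a + x * b, -b, -x), ?_⟩
    rw [eq_inv_iff_mul_eq_one, el_mul, ← el_zero e]
    congr 1 <;> ring

theorem el_mem (a b x : ZMod p) : el e a b x ∈ syl e := ⟨(a, b, x), rfl⟩

theorem card_syl : Nat.card (syl e) = p ^ 3 := by
  have hi : Function.Injective fun t : ZMod p × ZMod p × ZMod p => el e t.1 t.2.1 t.2.2 := by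
    rintro ⟨a, b, x⟩ ⟨c, d, y⟩ h
    obtain ⟨h1, h2, h3⟩ := el_inj e h
    exact Prod.ext h1 (Prod.ext h2 h3)
  rw [← Nat.card_congr ((Equiv.ofInjective _ hi).trans (Equiv.refl _) : _ ≃ syl e),
    Nat.card_prod, Nat.card_prod, Nat.card_zmod]
  ring

theorem isPGroup_syl : IsPGroup p (syl e) := IsPGroup.of_card (card_syl e)

theorem not_dvd_index [Finite X] : ¬ p ∣ (syl e).index := by
  have hb : Function.Bijective fun t : Plane p × SL2 p => tr e t.1 * li e t.2 := by
    refine ⟨?_, fun x => ?_⟩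
    · rintro ⟨v, A⟩ ⟨w, B⟩ h
      replace h : tr e v * li e A = tr e w * li e B := h
      obtain rfl := lin_unique e h
      rw [tr_injective e (mul_right_cancel h)]
    · obtain ⟨A, v, rfl⟩ := exists_eq_mul e x
      exact ⟨(v, A), rfl⟩
  have hc : Nat.card X = p * p * Nat.card (SL2 p) := by
    rw [← Nat.card_eq_of_bijective _ hb, Nat.card_prod]
    congr 1
    simp [Plane, Nat.card_eq_fintype_card, sq]
  have hs : (p - 1) * Nat.card (SL2 p) = (p ^ 2 - 1) * (p ^ 2 - p) := by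
    rw [Cfsg.Agent.H1.sub_one_mul_card_SL (ZMod.card p) 2 (by norm_num), Fin.prod_univ_two]
    simp
  have h2 := hp.out.two_le
  have hs' : Nat.card (SL2 p) = (p ^ 2 - 1) * p := by
    refine Nat.eq_of_mul_eq_mul_left (show 0 < p - 1 by omega) ?_
    rw [hs, show p ^ 2 - p = (p - 1) * p by rw [Nat.sub_mul, one_mul, sq]]
    ring
  have hidx := Subgroup.index_mul_card (syl e)
  rw [card_syl, hc, hs'] at hidx
  have : (syl e).index = p ^ 2 - 1 :=
    Nat.eq_of_mul_eq_mul_right (show 0 < p ^ 3 by positivity) (hidx.trans (by ring))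
  rw [this]
  intro h
  have h1 : p ∣ p ^ 2 := dvd_pow_self p two_ne_zero
  have := Nat.dvd_sub h1 h
  rw [Nat.sub_sub_self (Nat.one_le_pow _ _ (by omega))] at this
  exact hp.out.one_lt.ne' (Nat.dvd_one.1 this)

/-- The automorphism of the Sylow subgroup exchanging its two standard abelian maximal subgroups. -/
theorem exists_flip : ∃ φ : syl e ≃* syl e, ∀ a b x,
    (φ ⟨el e a b x, el_mem e a b x⟩ : X) = el e (-a + b * x) x b := by
  classical
  let F : syl e → syl e := fun s =>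
    ⟨el e (-s.2.choose.1 + s.2.choose.2.1 * s.2.choose.2.2) s.2.choose.2.2 s.2.choose.2.1,
      el_mem e _ _ _⟩
  have hF : ∀ a b x, (F ⟨el e a b x, el_mem e a b x⟩ : X) = el e (-a + b * x) x b := by
    intro a b x
    show el e _ _ _ = _
    set s : syl e := ⟨el e a b x, el_mem e a b x⟩ with hs
    obtain ⟨h1, h2, h3⟩ := el_inj e (show el e s.2.choose.1 s.2.choose.2.1 s.2.choose.2.2 =
      el e a b x from s.2.choose_spec)
    rw [h1, h2, h3]
  have hmul : ∀ s t, F (s * t) = F s * F t := by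
    rintro ⟨_, ⟨⟨a, b, x⟩, rfl⟩⟩ ⟨_, ⟨⟨c, d, y⟩, rfl⟩⟩
    apply Subtype.ext
    have : (⟨el e a b x, el_mem e a b x⟩ * ⟨el e c d y, el_mem e c d y⟩ : syl e) =
        ⟨el e (a + (c + x * d)) (b + d) (x + y), el_mem e _ _ _⟩ :=
      Subtype.ext (el_mul e a b x c d y)
    show (F (⟨el e a b x, el_mem e a b x⟩ * ⟨el e c d y, el_mem e c d y⟩) : X) =
      F ⟨el e a b x, el_mem e a b x⟩ * F ⟨el e c d y, el_mem e c d y⟩
    rw [this, hF, hF, hF, el_mul]
    congr 1
    ring
  have hinv : Function.Involutive F := by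
    rintro ⟨_, ⟨⟨a, b, x⟩, rfl⟩⟩
    apply Subtype.ext
    have : F ⟨el e a b x, el_mem e a b x⟩ = ⟨el e (-a + b * x) x b, el_mem e _ _ _⟩ :=
      Subtype.ext (hF a b x)
    show (F (F ⟨el e a b x, el_mem e a b x⟩) : X) = el e a b x
    rw [this, hF]
    congr 1
    ring
  exact ⟨{ toFun := F, invFun := F, left_inv := hinv, right_inv := hinv, map_mul' := hmul },
    hF⟩

variable {W : ∀ (Q : Type u) [Group Q], Subgroup Q}

/-- An element normalizing a functor value of the Sylow subgroup fixes the central line. -/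
theorem entry_eq_zero [Finite X] (hW : Cfsg.IsCharPFunctor.{u} p W) {v : Plane p} {A : SL2 p}
    (hg : tr e v * li e A ∈ Subgroup.normalizer
      ((Cfsg.inducedFunctor (G := X) W (syl e) : Subgroup X) : Set X)) :
    (A : Matrix (Fin 2) (Fin 2) (ZMod p)) 1 0 = 0 := by
  by_contra hA
  obtain ⟨φ, hφ⟩ := exists_flip e
  have hT := isPGroup_syl e
  set U := Cfsg.inducedFunctor (G := X) W (syl e) with hU
  have hUle : U ≤ syl e := Subgroup.map_subtype_le _
  have hflip : ∀ a b x, el e a b x ∈ U → el e (-a + b * x) x b ∈ U := by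
    intro a b x h
    obtain ⟨s, hs, hse⟩ := h
    obtain rfl : s = ⟨el e a b x, el_mem e a b x⟩ := Subtype.ext hse
    refine ⟨φ ⟨el e a b x, el_mem e a b x⟩, ?_, hφ a b x⟩
    rw [← hW.2 _ _ hT φ]
    exact ⟨_, hs, rfl⟩
  have hnorm : ∀ t ∈ syl e, ∀ s ∈ U, t * s * t⁻¹ ∈ U := by
    rintro t ht _ ⟨s, hs, rfl⟩
    refine ⟨⟨t, ht⟩ * s * ⟨t, ht⟩⁻¹, ?_, rfl⟩
    rw [← hW.2 _ _ hT (MulAut.conj (⟨t, ht⟩ : syl e))]
    exact ⟨s, hs, rfl⟩
  -- a nontrivial element of the central line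
  obtain ⟨c, hc, hcU⟩ : ∃ c, c ≠ 0 ∧ el e c 0 0 ∈ U := by
    have : Nontrivial (syl e) := by
      rw [← Finite.one_lt_card_iff_nontrivial, card_syl]
      exact Nat.one_lt_pow (by norm_num) hp.out.one_lt
    obtain ⟨s, hs, hs1⟩ := (Subgroup.bot_or_exists_ne_one _).resolve_left (hW.1 _ hT this)
    obtain ⟨⟨a, b, x⟩, hs2⟩ := s.2
    have hsU : el e a b x ∈ U := ⟨s, hs, hs2.symm⟩
    have key : ∀ a b x a' b' x' : ZMod p, el e a b x ∈ U → el e (x' * b - x * b') 0 0 ∈ U := by
      intro a b x a' b' x' h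
      have h' := mul_mem (hnorm _ (el_mem e a' b' x') _ h) (inv_mem h)
      convert h' using 1
      rw [eq_mul_inv_iff_mul_eq, eq_mul_inv_iff_mul_eq, el_mul, el_mul, el_mul]
      congr 1 <;> ring
    rcases eq_or_ne x 0 with rfl | hx
    · rcases eq_or_ne b 0 with rfl | hb
      · refine ⟨a, ?_, hsU⟩
        rintro rfl
        exact hs1 (Subtype.ext (hs2.symm.trans (el_zero e)))
      · exact ⟨b, hb, by simpa using key a b 0 0 0 1 hsU⟩
    · exact ⟨-x, neg_ne_zero.2 hx, by simpa using key a b x 0 1 0 hsU⟩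
  -- the moved line meets the flip
  have hconj : ∀ s ∈ U, (tr e v * li e A) * s * (tr e v * li e A)⁻¹ ∈ U := fun s hs =>
    (Subgroup.mem_normalizer_iff.1 hg s).1 hs
  have h1 : el e (A.1 0 0 * c) (A.1 1 0 * c) 0 ∈ U := by
    convert hconj _ hcU using 1
    have h0 : pt (A.1 0 0 * c) (A.1 1 0 * c) = act A (pt c 0) := by
      apply Multiplicative.toAdd.injective
      ext i
      fin_cases i <;> simp [act, pt, mul_comm]
    rw [eq_mul_inv_iff_mul_eq]
    simp only [el, ofAdd_zero, map_one, mul_one, h0]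
    rw [← mul_assoc, ← map_mul, mul_comm, map_mul, mul_assoc (tr e v), mul_assoc (tr e v), li_tr]
  have h2 := hUle (hconj _ (hflip _ _ _ h1))
  obtain ⟨⟨a', b', t⟩, h3⟩ := h2
  rw [eq_mul_inv_iff_mul_eq] at h3
  simp only [el] at h3
  rw [mul_eq, mul_eq] at h3
  have h4 := congrArg (fun B : SL2 p => (B : Matrix (Fin 2) (Fin 2) (ZMod p)) 1 1)
    (lin_unique e h3)
  simp [Matrix.mul_apply, Fin.sum_univ_two] at h4
  rcases h4 with h4 | h4
  · exact hA h4
  · exact hc h4

/-- Conjugating by `low 1` cannot be done inside the normalizer of the central line. -/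
theorem no_fix {B : SL2 p} {v : Plane p} (hB : (B : Matrix (Fin 2) (Fin 2) (ZMod p)) 1 0 = 0)
    (h : (tr e v * li e B) * tr e (pt 1 0) * (tr e v * li e B)⁻¹ =
      li e (low 1) * tr e (pt 1 0) * (li e (low 1))⁻¹) : False := by
  have h' : tr e v * li e B * tr e (pt 1 0) * (tr e v * li e B)⁻¹ = tr e (act B (pt 1 0)) := by
    rw [mul_inv_eq_iff_eq_mul, mul_assoc (tr e v), li_tr, ← mul_assoc, ← mul_assoc, ← map_mul,
      ← map_mul, mul_comm v]
  rw [h', li_tr_inv, act_low] at h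
  have h2 := congrFun (congrArg Multiplicative.toAdd (tr_injective e h)) 1
  simp [act, pt, hB] at h2

theorem range_le_syl : (tr e).range ≤ syl e := by
  rintro _ ⟨v, rfl⟩
  exact ⟨(v.toAdd 0, v.toAdd 1, 0), by simp [el, ← eq_pt]⟩

theorem range_le [Finite X] (S : Sylow p X) : (tr e).range ≤ (S : Subgroup X) :=
  (H19.le_pCore (range_normal e) (range_isPGroup e)).trans (H19.pCore_le_sylow S)

include e in
/-- A single functor does not control strong fusion. -/
theorem exists_not_controls [Finite X] (hW : Cfsg.IsCharPFunctor.{u} p W) :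
    ∃ T : Sylow p X, ¬ Cfsg.ControlsStrongFusion p
      (Cfsg.inducedFunctor (G := X) W (T : Subgroup X)) := by
  refine ⟨(isPGroup_syl e).toSylow (not_dvd_index e), fun hctl => ?_⟩
  obtain ⟨S, -, hS⟩ := hctl
  have hV := range_le e S
  obtain ⟨-, hg⟩ := hS _ hV
  obtain ⟨x, hx, hxe⟩ := hg (li e (low 1)) (by
    rintro _ ⟨v, hv, rfl⟩
    exact hV ((range_normal e).conj_mem v hv _))
  obtain ⟨B, w, rfl⟩ := exists_eq_mul e x
  exact no_fix e (entry_eq_zero e hW hx) (hxe _ ⟨_, rfl⟩).symm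

include e in
/-- No family of functors controls strong fusion. -/
theorem not_family [Finite X] {𝓦 : Set (∀ (Q : Type u) [Group Q], Subgroup Q)}
    (h𝓦 : ∀ W ∈ 𝓦, Cfsg.IsCharPFunctor.{u} p W) :
    ¬ Cfsg.FamilyControlsStrongFusionIn p
      ((fun W => Cfsg.inducedFunctor (G := X) W) '' 𝓦) ⊤ := by
  rintro ⟨T, -, hT, hidx, h⟩
  rw [Subgroup.relIndex_top_right] at hidx
  obtain ⟨g, hg⟩ := MulAction.exists_smul_eq X ((isPGroup_syl e).toSylow (not_dvd_index e))
    (hT.toSylow hidx)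
  let e' : ↥(Cfsg.qd p) ≃* X := e.trans (MulAut.conj g)
  have hsyl : syl e' = T := by
    have hg' := congrArg (fun P : Sylow p X => (P : Subgroup X)) hg
    rw [Sylow.coe_subgroup_smul] at hg'
    have e1 : syl e' = (syl e).map (MulAut.conj g).toMonoidHom := by
      ext x
      constructor
      · rintro ⟨⟨a, b, c⟩, rfl⟩
        exact ⟨_, el_mem e a b c, by simp [el, tr, li, e']⟩
      · rintro ⟨_, ⟨⟨a, b, c⟩, rfl⟩, rfl⟩
        exact ⟨(a, b, c), by simp [el, tr, li, e']⟩
    rw [e1]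
    exact hg'
  subst hsyl
  obtain ⟨n, c, hc0, hstep, -, hlast⟩ := h ((tr e').range : Set X) (li e' (low 1))
    (Subgroup.mem_top _) (range_le_syl e') (by
      rintro _ ⟨v, hv, rfl⟩
      exact range_le_syl e' ((range_normal e').conj_mem v hv _))
  have key : ∀ i : Fin (n + 1), ∃ (v : Plane p) (B : SL2 p), c i = tr e' v * li e' B ∧
      (B : Matrix (Fin 2) (Fin 2) (ZMod p)) 1 0 = 0 := by
    intro i
    induction i using Fin.induction with
    | zero => exact ⟨1, 1, by simp [hc0], by simp⟩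
    | succ i ih =>
      obtain ⟨v, B, hcB, hB⟩ := ih
      obtain ⟨_, ⟨W, hW, rfl⟩, hi⟩ := hstep i
      obtain ⟨C, w, hC⟩ := exists_eq_mul e' (c i.succ * (c i.castSucc)⁻¹)
      have hC0 : (C : Matrix (Fin 2) (Fin 2) (ZMod p)) 1 0 = 0 :=
        entry_eq_zero e' (h𝓦 W hW) (hC ▸ hi.2)
      refine ⟨w * act C v, C * B, ?_, ?_⟩
      · rw [← mul_eq, ← hC, ← hcB, inv_mul_cancel_right]
      · simp [Matrix.mul_apply, Fin.sum_univ_two, hB, hC0]
  obtain ⟨v, B, hcB, hB⟩ := key (Fin.last n)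
  have hl := hlast _ ⟨pt 1 0, rfl⟩
  rw [hcB] at hl
  exact no_fix e' hB hl

end Cfsg.Agent.H61.QdFus
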