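import Cfsg.Agent.H95.QdGroup

/-! `Qd(p)` involved forces `SL(2,p)` involved in a local subgroup. -/

set_option autoImplicit false

namespace Cfsg.Agent.H61

open Cfsg.Agent.H95

theorem involves_sl2 {G : Type*} [Group G] [Finite G] {p : ℕ} [Fact p.Prime]
    (h : Cfsg.Involves ↥(Cfsg.qd p) G) : ∃ U : Subgroup G, IsPGroup p U ∧ U ≠ ⊥ ∧
      Cfsg.Involves (Matrix.SpecialLinearGroup (Fin 2) (ZMod p)) ↥(Subgroup.normalizer (U : Set G)) := by
  obtain ⟨U, χ, hU, hχ, hA⟩ := HasGroupQdPair.of_involves h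
  refine ⟨U, hU, fun hb => ?_, ?_⟩
  · obtain ⟨v, hv⟩ := plane_nontrivial (p := p)
    obtain ⟨x, rfl⟩ := hχ v
    have : x = 1 := Subtype.ext (by simpa [hb] using x.2)
    exact hv (by rw [this, map_one])
  set N := Subgroup.normalizer (U : Set G) with hN
  let c : N → U → U := fun n x =>
    ⟨n * x * (n : G)⁻¹, (Subgroup.mem_normalizer_iff.1 n.2 _).1 x.2⟩
  have hc : ∀ (m n : N) (x : U), c (m * n) x = c m (c n x) := fun m n x =>
    Subtype.ext (by simp [c, mul_assoc])
  have hc1 : ∀ x : U, c 1 x = x := fun x => Subtype.ext (by simp [c])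
  let M : Subgroup N :=
    { carrier := {n | ∃ A : SL2 p, ∀ x, χ (c n x) = act A (χ x)}
      one_mem' := ⟨1, fun x => by rw [hc1, act_one]⟩
      mul_mem' := fun {m n} ⟨A, hA⟩ ⟨B, hB⟩ =>
        ⟨A * B, fun x => by rw [hc, hA, hB, act_mul]⟩
      inv_mem' := fun {n} ⟨A, hA⟩ => ⟨A⁻¹, fun x => by
        have h1 := hA (c n⁻¹ x)
        rw [← hc, mul_inv_cancel, hc1] at h1
        rw [h1, ← act_mul, inv_mul_cancel, act_one]⟩ }
  have huniq : ∀ (n : N) (A B : SL2 p), (∀ x, χ (c n x) = act A (χ x)) →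
      (∀ x, χ (c n x) = act B (χ x)) → A = B := fun n A B h1 h2 =>
    act_faithful fun v => by
      obtain ⟨x, rfl⟩ := hχ v
      rw [← h1, h2]
  let f : M →* SL2 p :=
    { toFun := fun n => n.2.choose
      map_one' := huniq 1 _ _ (1 : M).2.choose_spec fun x => by rw [hc1, act_one]
      map_mul' := fun m n => huniq _ _ _ (m * n).2.choose_spec fun x => by
        rw [Subgroup.coe_mul, hc, m.2.choose_spec, n.2.choose_spec, act_mul] }
  have hf : Function.Surjective f := fun A => by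
    obtain ⟨g, hg, hgx⟩ := hA A
    exact ⟨⟨⟨g, hg⟩, A, hgx⟩, huniq ⟨g, hg⟩ _ A ((⟨⟨g, hg⟩, A, hgx⟩ : M).2.choose_spec) hgx⟩
  have e : (f.ker.map M.subtype).subgroupOf M = f.ker :=
    Subgroup.comap_map_eq_self_of_injective M.subtype_injective _
  have hn : ((f.ker.map M.subtype).subgroupOf M).Normal := by rw [e]; infer_instance
  exact ⟨M, f.ker.map M.subtype, hn,
    ⟨(QuotientGroup.quotientMulEquivOfEq e).trans (QuotientGroup.quotientKerEquivOfSurjective f hf)⟩⟩

end Cfsg.Agent.H61
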