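import Cfsg.Agent.H61.Fusion
import Cfsg.Agent.H35.Quotient
import Cfsg.Agent.H34.Thompson
import Cfsg.Agent.H23.Thompson

/-! The consequence of triple factorizations of constrained sections. -/

set_option autoImplicit false

namespace Cfsg.Agent.H61.Triple

universe u

open Cfsg.Agent.H23 (IsSylowIn)

variable {p : ℕ} [Fact p.Prime]

/-- The elements of order `p` of the centre of `S`. -/
abbrev omZ (p : ℕ) {X : Type u} [Group X] (S : Subgroup X) : Subgroup X :=
  Cfsg.omegaOne p (S ⊓ Subgroup.centralizer (S : Set X))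

/-- `X = C(Ω₁Z(T)) N(W T)`. -/
def Fac (p : ℕ) (W : ∀ (Q : Type u) [Group Q], Subgroup Q) (X : Type u) [Group X] : Prop :=
  ∀ T : Sylow p X, ∀ x : X, ∃ a ∈ Subgroup.centralizer ((omZ p (T : Subgroup X) : Subgroup X) : Set X),
    ∃ b ∈ Subgroup.normalizer ((Cfsg.inducedFunctor (G := X) W (T : Subgroup X) : Subgroup X) : Set X),
      x = a * b

theorem map_omZ {X Y : Type u} [Group X] [Group Y] (f : X →* Y) (T : Subgroup X)
    (hf : Set.InjOn f T) : (omZ p T).map f = omZ p (T.map f) := by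
  unfold omZ
  rw [← H23.map_inf_centralizer f T hf, Cfsg.omegaOne, Cfsg.omegaOne, MonoidHom.map_closure]
  congr 1
  ext y
  constructor
  · rintro ⟨x, ⟨hx, hxp⟩, rfl⟩
    exact ⟨⟨x, hx, rfl⟩, by rw [← map_pow, hxp, map_one]⟩
  · rintro ⟨⟨x, hx, rfl⟩, hy⟩
    refine ⟨x, ⟨hx, ?_⟩, rfl⟩
    refine hf (T.pow_mem hx.1 p) T.one_mem ?_
    rw [map_pow, hy, map_one]

variable {W : ∀ (Q : Type u) [Group Q], Subgroup Q}

theorem Fac.of_equiv {X Y : Type u} [Group X] [Finite X] [Group Y] [Finite Y] (e : X ≃* Y)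
    (hW : Cfsg.IsCharPFunctor.{u} p W) (h : Fac p W X) : Fac p W Y := by
  intro T y
  obtain ⟨U, hU⟩ : ∃ U : Sylow p X, (U : Subgroup X).map e.toMonoidHom = T :=
    ⟨(T.2.comap_of_injective e.toMonoidHom e.injective).toSylow (by
      rw [Subgroup.index_comap_of_surjective _ e.surjective]; exact T.not_dvd_index),
      Subgroup.map_comap_eq_self_of_surjective e.surjective _⟩
  obtain ⟨a, ha, b, hb, hab⟩ := h U (e.symm y)
  refine ⟨e a, ?_, e b, ?_, by rw [← map_mul, ← hab, e.apply_symm_apply]⟩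
  · rw [← hU, ← map_omZ e.toMonoidHom _ e.injective.injOn]
    refine Subgroup.mem_centralizer_iff.2 ?_
    rintro _ ⟨z, hz, rfl⟩
    show e z * e a = e a * e z
    rw [← map_mul, ← map_mul, Subgroup.mem_centralizer_iff.1 ha z hz]
  · rw [← hU, induced_map hW e.toMonoidHom e.injective U.2]
    exact Subgroup.le_normalizer_map _ ⟨b, hb, rfl⟩

variable {G : Type u} [Group G] [Finite G]

/-- In a section in which `Ω₁Z` of a Sylow subgroup lies in `O_p`, its conjugates are conjugates
under the normalizer of the functor value. -/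
theorem exists_agree (hW : Cfsg.IsCharPFunctor.{u} p W)
    (hfac : ∀ (Y : Type u) [Group Y] [Finite Y], Sect Y G → Constrained p Y → Fac p W Y)
    {X : Type u} [Group X] [Finite X] (hX : Sect X G) (S : Sylow p X)
    (hZ : omZ p (S : Subgroup X) ≤ Cfsg.pCore p X) (x : X) :
    ∃ m ∈ Subgroup.normalizer ((Cfsg.inducedFunctor (G := X) W (S : Subgroup X) : Subgroup X) : Set X),
      ∀ z ∈ omZ p (S : Subgroup X), m * z * m⁻¹ = x * z * x⁻¹ := by
  induction hd : Nat.card X using Nat.strong_induction_on generalizing X with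
  | _ d IH =>
  subst hd
  set Q := Cfsg.pCore p X with hQdef
  have hQn : Q.Normal := H19.pCore_normal p X
  have hQS : Q ≤ (S : Subgroup X) := H19.pCore_le_sylow S
  set K := Cfsg.pPrimeCore p X with hKdef
  have hKn : K.Normal := H19.pPrimeCore_normal p X
  have hQK : Q ⊓ K = ⊥ := H19.inf_eq_bot_of_isPGroup_coprime (H19.pCore_isPGroup p)
    (H19.pPrimeCore_coprime p)
  set Z0 := omZ p (S : Subgroup X) with hZ0
  have hZc : ∀ z ∈ Z0, ∀ s ∈ (S : Subgroup X), s * z = z * s := fun z hz s hs =>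
    Subgroup.mem_centralizer_iff.1 (H34.omegaOne_le _ hz).2 s hs
  have hC' : ∀ c ∈ coreCentral p X, ∀ z ∈ Z0, c * z * c⁻¹ = z := by
    intro c hc z hz
    have hle : coreCentral p X ≤ Subgroup.centralizer (Z0 : Set X) := by
      refine sup_le (fun q hq => Subgroup.mem_centralizer_iff.2 fun w hw => (hZc w hw q (hQS hq)).symm)
        (Subgroup.centralizer_le hZ)
    rw [← Subgroup.mem_centralizer_iff.1 (hle hc) z hz, mul_inv_cancel_right]
  have hKle : K ≤ coreCentral p X := by
    refine le_sup_of_le_right fun k hk => Subgroup.mem_centralizer_iff.2 fun q hq => ?_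
    have h1 : q * k * q⁻¹ * k⁻¹ ∈ Q ⊓ K := Subgroup.mem_inf.2 ⟨by
      rw [show q * k * q⁻¹ * k⁻¹ = q * (k * q⁻¹ * k⁻¹) by group]
      exact mul_mem hq (hQn.conj_mem _ (inv_mem hq) k), mul_mem (hKn.conj_mem k hk q) (inv_mem hk)⟩
    rw [hQK, Subgroup.mem_bot, mul_inv_eq_one, mul_inv_eq_iff_eq_mul] at h1
    exact h1
  have hCn : (coreCentral p X).Normal := coreCentral_normal
  set P := (S : Subgroup X) ⊓ coreCentral p X with hP
  by_cases hN : Subgroup.normalizer (P : Set X) = ⊤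
  · -- `X ⧸ K` is constrained
    have hPQ : P ≤ Q := H19.le_pCore (Subgroup.normalizer_eq_top_iff.1 hN) (S.2.to_le inf_le_left)
    set C := Subgroup.centralizer (Q : Set X) with hC
    have hsyl : IsSylowIn p ((S : Subgroup X) ⊓ C) C := sylowIn_inf_normal
      (sylowIn_of_le S le_top) le_top (by
        rw [Subgroup.normalizer_eq_top_iff.2 (inferInstance : C.Normal)])
    set R : Subgroup X := (S : Subgroup X) ⊓ C with hR
    have hRQ : R ≤ Q := le_trans (inf_le_inf_left _ le_sup_right) hPQ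
    let RC : Sylow p C := IsPGroup.toSylow (p := p)
      (P := R.subgroupOf C) (hsyl.2.1.of_equiv (Subgroup.subgroupOfEquivOfLe hsyl.1).symm) hsyl.2.2
    have hcen : Subgroup.normalizer ((RC : Subgroup C) : Set C) ≤
        Subgroup.centralizer ((RC : Subgroup C) : Set C) := by
      intro c _
      rw [Subgroup.mem_centralizer_iff]
      intro q hq
      exact Subtype.ext (Subgroup.mem_centralizer_iff.1 c.2 q (hRQ (show (q : X) ∈ R from hq)))
    set N := (MonoidHom.transferSylow RC hcen).ker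
    have h1 : N.map C.subtype ≤ K := (Subgroup.map_mono (H19.le_pPrimeCore inferInstance
      ((Fact.out : p.Prime).coprime_iff_not_dvd.2
        (MonoidHom.not_dvd_card_ker_transferSylow RC hcen)).symm)).trans
      (H19.map_pPrimeCore_le (p := p) C)
    have hCQK : C ≤ Q ⊔ K := by
      have hsup := (MonoidHom.ker_transferSylow_isComplement' RC hcen).sup_eq_top
      change N ⊔ _ = ⊤ at hsup
      have h2 := congrArg (Subgroup.map C.subtype) hsup
      rw [Subgroup.map_sup, ← MonoidHom.range_eq_map, C.range_subtype] at h2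
      rw [← h2]
      refine sup_le (h1.trans le_sup_right) (le_trans ?_ le_sup_left)
      rintro _ ⟨r, hr, rfl⟩
      exact hRQ hr
    set f := QuotientGroup.mk' K with hf
    have hfs : Function.Surjective f := QuotientGroup.mk'_surjective K
    have hker : f.ker = K := QuotientGroup.ker_mk' K
    have hinjQ : ∀ a ∈ Q, f a = 1 → a = 1 := fun a ha e => by
      have : a ∈ Q ⊓ K := Subgroup.mem_inf.2 ⟨ha, hker ▸ e⟩
      rwa [hQK, Subgroup.mem_bot] at this
    have hlift : ∀ (a : X) (A : Subgroup X), A ≤ Q →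
        (∀ z ∈ A, f z * f a = f a * f z) → ∀ z ∈ A, a * z * a⁻¹ = z := by
      intro a A hA h z hz
      refine mul_inv_eq_one.1 (hinjQ _ (mul_mem (hQn.conj_mem z (hA hz) a) (inv_mem (hA hz))) ?_)
      rw [map_mul, map_mul, map_mul, map_inv, map_inv, ← h z hz]
      group
    have hcon : Constrained p (X ⧸ K) := by
      intro y hy
      obtain ⟨a, rfl⟩ := hfs y
      have hQle : Q.map f ≤ Cfsg.pCore p (X ⧸ K) :=
        H19.le_pCore (hQn.map _ hfs) ((H19.pCore_isPGroup p).map _)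
      have haC : a ∈ C := Subgroup.mem_centralizer_iff.2 fun z hz => by
        have := hlift a Q le_rfl (fun w hw =>
          Subgroup.mem_centralizer_iff.1 hy _ (hQle ⟨w, hw, rfl⟩)) z hz
        conv_lhs => rw [← this]
        group
      have h3 : f a ∈ (Q ⊔ K).map f := ⟨a, hCQK haC, rfl⟩
      rw [Subgroup.map_sup, (Subgroup.map_eq_bot_iff K).2 hker.ge, sup_bot_eq] at h3
      exact hQle h3
    obtain ⟨T, hT⟩ := exists_sylow_quotient K S
    have hinjS : Set.InjOn f (S : Subgroup X) := by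
      intro a ha b hb e
      have h1 : a⁻¹ * b ∈ (S : Subgroup X) ⊓ K :=
        Subgroup.mem_inf.2 ⟨mul_mem (inv_mem (SetLike.mem_coe.1 ha)) (SetLike.mem_coe.1 hb),
          QuotientGroup.eq.1 e⟩
      rw [H19.inf_eq_bot_of_isPGroup_coprime S.2 (H19.pPrimeCore_coprime p), Subgroup.mem_bot] at h1
      exact inv_mul_eq_one.1 h1
    obtain ⟨a, ha, b, hb, hab⟩ :=
      hfac (X ⧸ K) (sect_trans (sect_quotient K) hX) hcon T (f x⁻¹)
    obtain ⟨a0, rfl⟩ := hfs a
    rw [hT, induced_map' hW f S.2 hinjS, ← H35.map_normalizer_eq f hfs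
      (by rw [hker]; exact H19.pPrimeCore_coprime p) (P := Cfsg.inducedFunctor W (S : Subgroup X)) (S.2.to_le (Subgroup.map_subtype_le _))] at hb
    obtain ⟨n, hn, rfl⟩ := hb
    rw [hT, ← map_omZ f _ hinjS] at ha
    have ha0 : ∀ z ∈ Z0, a0 * z * a0⁻¹ = z := hlift a0 Z0 hZ fun z hz =>
      Subgroup.mem_centralizer_iff.1 ha _ ⟨z, hz, rfl⟩
    have hk : x * a0 * n ∈ K := by
      rw [← hker, MonoidHom.mem_ker, mul_assoc, map_mul, map_mul, ← hab, map_inv, mul_inv_cancel]
    refine ⟨n⁻¹, inv_mem hn, fun z hz => ?_⟩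
    have h4 := hC' _ (hKle (hKn.conj_mem _ hk n)) z hz
    have h6 : a0⁻¹ * z * a0 = z := by
      calc a0⁻¹ * z * a0 = a0⁻¹ * (a0 * z * a0⁻¹) * a0 := by rw [ha0 z hz]
        _ = z := by group
    calc n⁻¹ * z * n⁻¹⁻¹
        = n⁻¹ * ((n * (x * a0 * n) * n⁻¹) * (a0⁻¹ * z * a0) * (n * (x * a0 * n) * n⁻¹)⁻¹) * n := by
          rw [h6, h4]; group
      _ = x * z * x⁻¹ := by group
  · set H := Subgroup.normalizer (P : Set X) with hH
    have hSH : (S : Subgroup X) ≤ H := fun s hs => mem_normalizer_of_cj (by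
      rw [hP, cj_inf, cj_eq_self (Subgroup.le_normalizer hs), cj_normal s (coreCentral p X)])
    have hT : IsSylowIn p P (coreCentral p X) := sylowIn_inf_normal
      (sylowIn_of_le S le_top) le_top (by rw [Subgroup.normalizer_eq_top_iff.2 hCn])
    have hxT : IsSylowIn p (cj x P) (coreCentral p X) := by
      have := sylowIn_cj hT x
      rwa [cj_normal x (coreCentral p X)] at this
    obtain ⟨c, hc, hce⟩ := exists_cj_eq hxT hT
    rw [cj_cj] at hce
    have hcx : c * x ∈ H := mem_normalizer_of_cj hce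
    let S' : Sylow p H := S.subtype hSH
    have hS' : (S' : Subgroup H).map H.subtype = S := Subgroup.map_subgroupOf_eq_of_le hSH
    have hZ' : (omZ p (S' : Subgroup H)).map H.subtype = Z0 := by
      rw [map_omZ _ _ H.subtype_injective.injOn, hS']
    have hZH : omZ p (S' : Subgroup H) ≤ Cfsg.pCore p H := by
      intro z hz
      refine H19.le_pCore (N := Q.comap H.subtype) (hQn.comap _)
        ((H19.pCore_isPGroup p).comap_of_injective _ H.subtype_injective) ?_
      exact hZ (hZ' ▸ ⟨z, hz, rfl⟩)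
    obtain ⟨m, hm, hme⟩ := IH (Nat.card H)
      (lt_of_le_of_ne (Subgroup.card_le_card_group H) fun e => hN (Subgroup.eq_top_of_card_eq H e))
      (sect_trans (sect_subgroup H) hX) S' hZH ⟨c * x, hcx⟩ rfl
    refine ⟨m, ?_, fun z hz => ?_⟩
    · rw [← hS', induced_map hW H.subtype H.subtype_injective S'.2]
      exact Subgroup.le_normalizer_map _ ⟨m, hm, rfl⟩
    · rw [← hZ'] at hz
      obtain ⟨w, hw, rfl⟩ := hz
      have := congrArg H.subtype (hme w hw)
      simp only [map_mul, map_inv, Subgroup.coe_subtype] at this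
      show (m : X) * (w : X) * (m : X)⁻¹ = x * (w : X) * x⁻¹
      rw [this]
      have h2 := hC' _ (hCn.conj_mem c hc x⁻¹) w (hZ'.le ⟨w, hw, rfl⟩)
      calc c * x * (w : X) * (c * x)⁻¹
          = x * ((x⁻¹ * c * x⁻¹⁻¹) * w * (x⁻¹ * c * x⁻¹⁻¹)⁻¹) * x⁻¹ := by group
        _ = x * (w : X) * x⁻¹ := by rw [h2]

end Cfsg.Agent.H61.Triple

namespace Cfsg.Agent.H61.Triple

universe u

open Cfsg.Agent.H23 (IsSylowIn)

variable {G : Type u} [Group G] [Finite G] {p : ℕ} [Fact p.Prime]

/-- The normal closure of `Z` in `N`, seen in `G`. -/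
def ncl (N Z : Subgroup G) : Subgroup G :=
  (Subgroup.normalClosure ((Z.subgroupOf N : Subgroup N) : Set N)).map N.subtype

theorem le_normalizer_ncl (N Z : Subgroup G) : N ≤ Subgroup.normalizer (ncl N Z : Set G) := by
  intro n hn
  refine mem_normalizer_of_cj (cj_eq_of_le ?_)
  rintro _ ⟨_, ⟨y, hy, rfl⟩, rfl⟩
  exact ⟨⟨n, hn⟩ * y * ⟨n, hn⟩⁻¹, Subgroup.normalClosure_normal.conj_mem y hy _, rfl⟩

theorem conj_mem_ncl {N Z : Subgroup G} (hZ : Z ≤ N) {x z : G} (hx : x ∈ N) (hz : z ∈ Z) :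
    x * z * x⁻¹ ∈ ncl N Z :=
  (Subgroup.mem_normalizer_iff.1 (le_normalizer_ncl N Z hx) z).1
    ⟨⟨z, hZ hz⟩, Subgroup.subset_normalClosure (Subgroup.mem_subgroupOf.2 hz), rfl⟩

theorem ncl_le {N Z B : Subgroup G} (h : ∀ x ∈ N, ∀ z ∈ Z, x * z * x⁻¹ ∈ B) : ncl N Z ≤ B := by
  rw [ncl, Subgroup.map_le_iff_le_comap, Subgroup.normalClosure, Subgroup.closure_le]
  intro y hy
  obtain ⟨a, ha, hay⟩ := Group.mem_conjugatesOfSet_iff.1 hy
  obtain ⟨c, rfl⟩ := isConj_iff.1 hay
  exact h _ c.2 _ ha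

variable {W W' : ∀ (Q : Type u) [Group Q], Subgroup Q}

/-- The closure of `Ω₁Z(S)` in one normalizer is in that of the other. -/
theorem ncl_le_ncl (S : Sylow p G) (hW : Cfsg.IsCharPFunctor.{u} p W)
    (hW' : Cfsg.IsCharPFunctor.{u} p W')
    (hfac : ∀ (Y : Type u) [Group Y] [Finite Y], Sect Y G → Constrained p Y → Fac p W' Y)
    (hZ : omZ p (S : Subgroup G) ≤ Cfsg.inducedFunctor (G := G) W (S : Subgroup G)) :
    ncl (Subgroup.normalizer ((Cfsg.inducedFunctor (G := G) W (S : Subgroup G) : Subgroup G) : Set G))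
        (omZ p (S : Subgroup G)) ≤
      ncl (Subgroup.normalizer ((Cfsg.inducedFunctor (G := G) W' (S : Subgroup G) : Subgroup G) : Set G))
        (omZ p (S : Subgroup G)) := by
  set Y := Cfsg.inducedFunctor (G := G) W (S : Subgroup G) with hY
  set N := Subgroup.normalizer (Y : Set G) with hN
  have hSN : ∀ {V : ∀ (Q : Type u) [Group Q], Subgroup Q}, Cfsg.IsCharPFunctor.{u} p V →
      (S : Subgroup G) ≤
        Subgroup.normalizer ((Cfsg.inducedFunctor (G := G) V (S : Subgroup G) : Subgroup G) : Set G) :=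
    fun hV => Subgroup.le_normalizer.trans
      (normalizer_le_normalizer_functor (isConjugacyFunctor_induced hV) S.2)
  have hZS : omZ p (S : Subgroup G) ≤ (S : Subgroup G) := (H34.omegaOne_le _).trans inf_le_left
  refine ncl_le fun x hx z hz => ?_
  let S' : Sylow p N := S.subtype (hSN hW)
  have hS' : (S' : Subgroup N).map N.subtype = S := Subgroup.map_subgroupOf_eq_of_le (hSN hW)
  have hZ' : (omZ p (S' : Subgroup N)).map N.subtype = omZ p (S : Subgroup G) := by
    rw [map_omZ _ _ N.subtype_injective.injOn, hS']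
  have hYn : (Y.subgroupOf N).Normal := Subgroup.normal_subgroupOf_iff_le_normalizer
    Subgroup.le_normalizer |>.2 le_rfl
  have hZp : omZ p (S' : Subgroup N) ≤ Cfsg.pCore p N := by
    intro w hw
    refine H19.le_pCore hYn ((S.2.to_le (Subgroup.map_subtype_le _)).comap_of_injective _
      N.subtype_injective) (Subgroup.mem_subgroupOf.2 (hZ (hZ'.le ⟨w, hw, rfl⟩)))
  obtain ⟨m, hm, hme⟩ := exists_agree hW' hfac (sect_subgroup N) S' hZp ⟨x, hx⟩
  rw [← hZ'] at hz
  obtain ⟨w, hw, rfl⟩ := hz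
  have h1 := congrArg N.subtype (hme w hw)
  simp only [map_mul, map_inv] at h1
  show x * N.subtype w * x⁻¹ ∈ _
  have h2 : (N.subtype m) * N.subtype w * (N.subtype m)⁻¹ = x * N.subtype w * x⁻¹ := h1
  rw [← h2]
  refine conj_mem_ncl (hZS.trans (hSN hW')) ?_ (hZ'.le ⟨w, hw, rfl⟩)
  rw [← hS', induced_map hW' N.subtype N.subtype_injective S'.2]
  exact Subgroup.le_normalizer_map _ ⟨m, hm, rfl⟩

end Cfsg.Agent.H61.Triple
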