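import Cfsg.Agent.H61.Weak
import Cfsg.Agent.H61.KInfApps

/-! Weak closure for the K-infinity subgroups. -/

set_option autoImplicit false

namespace Cfsg.Agent.H61

universe u

open Cfsg.Agent.H23 (IsSylowIn)

variable {G : Type u} [Group G] [Finite G] {p : ℕ} [Fact p.Prime]

/-- The centre is inside the induced lower K-infinity subgroup. -/
theorem center_le_induced {P : Subgroup G} :
    P ⊓ Subgroup.centralizer (P : Set G) ≤ Cfsg.inducedFunctor Cfsg.kInfLower P := by
  rintro x ⟨hxP, hxC⟩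
  exact ⟨⟨x, hxP⟩, center_le_kInf.1 (Subgroup.mem_center_iff.2 fun y =>
    Subtype.ext (Subgroup.mem_centralizer_iff.1 hxC y y.2)), rfl⟩

/-- A quadratic element on the centre of the core. -/
theorem exists_quad_kInf {H P : Subgroup G} (hP : IsSylowIn p P H)
    (hW : ¬ H ≤ Subgroup.normalizer
      ((Cfsg.inducedFunctor (G := G) Cfsg.kInfLower P : Subgroup G) : Set G)) :
    ∃ g : G, g ∈ P ∧ g ∉ Cfsg.pCoreOf p H ∧
      ⁅⁅Cfsg.pCoreOf p H ⊓ Subgroup.centralizer ((Cfsg.pCoreOf p H : Subgroup G) : Set G),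
        Subgroup.zpowers g⁆, Subgroup.zpowers g⁆ = ⊥ := by
  set T := sylowOf hP with hT
  have e : (Cfsg.inducedFunctor (G := H) Cfsg.kInfLower (T : Subgroup H)).map H.subtype =
      Cfsg.inducedFunctor Cfsg.kInfLower P := by
    rw [← induced_map (p := p) isCharPFunctor_kInfLower H.subtype H.subtype_injective T.isPGroup',
      hT, coe_sylowOf, Subgroup.map_subgroupOf_eq_of_le hP.1]
  obtain ⟨g, hgT, hgQ, -, hquad, -⟩ := exists_quartic (G := H) T (Or.inl fun hn => hW fun h hh => by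
    refine mem_normalizer_of_cj (cj_eq_of_le ?_)
    rw [← e]
    rintro _ ⟨_, ⟨z, hz, rfl⟩, rfl⟩
    exact ⟨⟨h, hh⟩ * z * ⟨h, hh⟩⁻¹, hn.conj_mem z hz ⟨h, hh⟩, rfl⟩)
  refine ⟨g, by rwa [hT, coe_sylowOf] at hgT, fun hg => hgQ ?_, ?_⟩
  · obtain ⟨y, hy, hye⟩ := hg
    rwa [show g = y from Subtype.ext hye.symm]
  · have hZ : Cfsg.pCoreOf p H ⊓ Subgroup.centralizer ((Cfsg.pCoreOf p H : Subgroup G) : Set G) =
        (Cfsg.pCore p H ⊓ Subgroup.centralizer (Cfsg.pCore p H : Set H)).map H.subtype :=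
      (map_inf_centralizer (f := H.subtype) H.subtype_injective (Cfsg.pCore p H)).symm
    rw [hZ, show Subgroup.zpowers (g : G) = (Subgroup.zpowers g).map H.subtype from
      (MonoidHom.map_zpowers H.subtype g).symm, ← Subgroup.map_commutator, ← Subgroup.map_commutator, hquad,
      Subgroup.map_bot]

end Cfsg.Agent.H61
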